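import Mathlib
import Cfsg.Agent.Lib.J4T.KM
import Cfsg.Agent.Lib.PGroup.MaxClass2
import Cfsg.Agent.Lib.Ree.Tools

/-!
# Groups of Janko-four type: the prime 11
-/

set_option autoImplicit false
set_option Elab.async false

namespace CfsgLib.J4T.K

open Cfsg CfsgLib.Golay CfsgLib.M24E CfsgLib.LargeExtra Subgroup
open scoped Pointwise

variable {G : Type*} [Group G] [Finite G] {z : G}

theorem prime_dvd {q : ℕ} (hq : q.Prime) (h : q ∣ 86775571046077562880) :
    q = 2 ∨ q = 3 ∨ q = 5 ∨ q = 7 ∨ q = 11 ∨ q = 23 ∨ q = 29 ∨ q = 31 ∨ q = 37 ∨ q = 43 := by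
  rw [show 86775571046077562880 = 2 ^ 21 * (3 ^ 3 * (5 * (7 * (11 ^ 3 * (23 * (29 * (31 * (37 * 43)))))))) by
    norm_num] at h
  simp only [hq.dvd_mul, hq.prime.dvd_pow_iff_dvd (by norm_num : (21 : ℕ) ≠ 0),
    hq.prime.dvd_pow_iff_dvd (by norm_num : (3 : ℕ) ≠ 0)] at h
  have e := fun p (hp : Nat.Prime p) => Nat.prime_dvd_prime_iff_eq hq hp
  rwa [e 2 (by norm_num), e 3 (by norm_num), e 5 (by norm_num), e 7 (by norm_num), e 11 (by norm_num),
    e 23 (by norm_num), e 29 (by norm_num), e 31 (by norm_num), e 37 (by norm_num), e 43 (by norm_num)] at h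

theorem exists_ord {S : Subgroup G} {q : ℕ} (hq : q.Prime) (h : q ∣ Nat.card S) : ∃ x ∈ S, orderOf x = q := by
  have : Fact q.Prime := ⟨hq⟩
  obtain ⟨x, hx⟩ := exists_prime_orderOf_dvd_card' q h
  exact ⟨x, x.2, by rw [orderOf_coe, hx]⟩

theorem card_eq_pow {S : Subgroup G} {p : ℕ} (h : ∀ x ∈ S, (orderOf x).Prime → orderOf x = p) :
    ∃ a, Nat.card S = p ^ a :=
  ⟨_, Nat.eq_prime_pow_of_unique_prime_dvd Nat.card_pos.ne' fun hd h1 => by
    obtain ⟨x, hx, rfl⟩ := exists_ord hd h1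
    exact h x hx hd⟩

theorem pow_le_of_dvd {p a b n : ℕ} (h : p ^ a ∣ n) (hn : ¬ p ^ (b + 1) ∣ n) : a ≤ b := by
  by_contra h1
  exact hn ((pow_dvd_pow p (by omega)).trans h)

/-- the Sylow 11-subgroup `U = O(C(u))` -/
structure Elv (h : HM z) (u k : G) (U : Subgroup G) : Prop where
  uu : UU h u k
  ic : InvCent u z U
  cardU : Nat.card U = 11 ^ 3
  cardC : Nat.card (centralizer ({u} : Set G)) = 31944

theorem exists_elv (h : HM2 z) (c3 : ∀ x : G, x * h.ρ = h.ρ * x → x * z = z * x)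
    (hc : Nat.card G = 86775571046077562880) : ∃ u k U, Elv h.toHM u k U := by
  obtain ⟨u, k, U⟩ := exists_UU h
  obtain ⟨W, ic⟩ := U.exists_ic
  have h1 := ic.card
  rw [U.ord, U.card_cent] at h1
  have s12 : h.s (fv 1) * h.s (fv 2) = h.s (fv 2) * h.s (fv 1) * z := by
    rw [h.s_comm (fv_lt 1) (fv_lt 2), show bf (fv 1) (fv 2) = 1 by decide +kernel, pow_one]
  have cW : ∀ i, ∀ x ∈ W, h.s (fv i) * x * (h.s (fv i))⁻¹ ∈ W := fun i =>
    ic.norm _ (by rw [conj_eq_of_comm (U.u_s i).symm]; exact mem_zpowers u)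
  obtain ⟨a, ha⟩ := card_eq_pow (S := W) (p := 11) fun x hx hq => by
    by_contra hne
    have hcop : (orderOf x).Coprime (orderOf u) := by
      rw [U.ord]; exact (Nat.coprime_primes hq (by norm_num)).2 hne
    have hsq : ¬ orderOf x ^ 2 ∣ Nat.card (centralizer ({u} : Set G)) := fun h2 => by
      have h3 := h2.trans (card_subgroup_dvd_card _)
      have h4 := ic.odd.of_dvd_nat (orderOf_dvd_natCard W hx)
      rw [hc] at h3
      rcases prime_dvd hq ((dvd_pow_self _ two_ne_zero).trans h3) with e | e | e | e | e | e | e | e | e | e <;>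
        rw [e] at h2 h3 h4 hne <;> try (first | exact absurd h3 (by decide) | exact absurd h4 (by decide))
      · have h5 := (sq_dvd_cent Nat.prime_three h.orderOf_rho (mem_cent.2 U.uρ.symm) h2).trans
          (card_dvd_of_le (inf_le_inf_left _ fun y hy => mem_cent.2 (c3 y (mem_cent.1 hy))))
        rw [U.card_cent] at h5
        norm_num at h5
      · exact hne rfl
    have key : ∀ i, h.s (fv i) * x * (h.s (fv i))⁻¹ ∈ zpowers x := fun i =>
      mem_zpowers_of_comm hq rfl (by rw [conj_pow, pow_orderOf_eq_one]; group)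
        (ic.comm_of_coprime hx (cW i x hx) (pow_orderOf_eq_one x) hcop) (ic.le hx) (ic.le (cW i x hx)) hsq
    have h6 := orderOf_dvd_of_mem_zpowers (ic.fix x hx (comm_of_cyc (key 1) (key 2) s12))
    exact hq.one_lt.ne' (Nat.eq_one_of_dvd_coprimes hcop dvd_rfl h6)
  have h2 : a ≤ 3 := pow_le_of_dvd (ha ▸ card_subgroup_dvd_card W) (by rw [hc]; norm_num)
  have h3 := sq_dvd_cent (by norm_num) U.ord (mem_top u) (by rw [card_top, hc]; norm_num)
  rw [top_inf_eq] at h3
  have h4 : a ≠ 2 := by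
    rintro rfl
    have : Fact (Nat.Prime 11) := ⟨by norm_num⟩
    have ab : ∀ x ∈ W, ∀ y ∈ W, x * y = y * x := fun x hx y hy =>
      congrArg Subtype.val ((IsPGroup.isMulCommutative_of_card_eq_prime_sq ha).is_comm.comm ⟨x, hx⟩ ⟨y, hy⟩)
    let I : Subgroup G :=
      { carrier := {x | x ∈ W ∧ z * x * z⁻¹ = x⁻¹}
        one_mem' := ⟨one_mem _, by simp⟩
        mul_mem' := fun {x y} hx hy => ⟨mul_mem hx.1 hy.1, by
          rw [← conj_mul, hx.2, hy.2, ab x hx.1 y hy.1, mul_inv_rev]⟩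
        inv_mem' := fun {x} hx => ⟨inv_mem hx.1, by rw [← conj_inv, hx.2]⟩ }
    have hI : I ≤ W := fun _ hx => hx.1
    have nf : ∀ x ∈ I, x * z = z * x → x = 1 := fun x hx e => by
      have h5 := hx.2
      rw [conj_eq_of_comm e.symm, eq_inv_iff_mul_eq_one] at h5
      exact Isol.eq_one_of_odd_of_mul_self (ic.odd.of_dvd_nat (orderOf_dvd_natCard W hx.1)) h5
    obtain ⟨x, hx, hxu⟩ : ∃ x ∈ W, x ∉ zpowers u := by
      by_contra h5
      push Not at h5
      have := card_dvd_of_le (show W ≤ zpowers u from h5)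
      rw [ha, Nat.card_zpowers, U.ord] at this
      norm_num at this
    have zW := ic.norm z (by rw [conj_eq_of_comm U.uz.symm]; exact mem_zpowers u)
    have hd : x⁻¹ * (z * x * z⁻¹) ∈ I := ⟨mul_mem (inv_mem hx) (zW x hx), by
      calc z * (x⁻¹ * (z * x * z⁻¹)) * z⁻¹ = z * x⁻¹ * z⁻¹ * ((z * z) * x * (z * z)⁻¹) := by group
        _ = _ := by rw [h.zz]; group⟩
    have hd1 : x⁻¹ * (z * x * z⁻¹) ≠ 1 := fun e =>
      hxu (ic.fix x hx (comm_of_conj_eq (inv_mul_eq_one.1 e).symm).symm)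
    have cI : Nat.card I = 11 := by
      obtain ⟨i, hi, e⟩ := (Nat.dvd_prime_pow (by norm_num)).1 (ha ▸ card_dvd_of_le hI)
      interval_cases i
      · exact absurd (mem_bot.1 (card_eq_one.1 e ▸ hd)) hd1
      · exact e
      · have h5 := eq_of_le_of_card_ge hI (by rw [ha, e])
        have h6 := U.ord
        rw [nf u (h5 ▸ ic.mem) U.uz, orderOf_one] at h6
        norm_num at h6
    have e := (SmallSimple.eq_zpowers_of_mem cI hd hd1).2
    generalize x⁻¹ * (z * x * z⁻¹) = d at hd hd1 e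
    have key : ∀ i, h.s (fv i) * d * (h.s (fv i))⁻¹ ∈ zpowers d := fun i => e ▸ ⟨cW i d hd.1, by
      calc z * (h.s (fv i) * d * (h.s (fv i))⁻¹) * z⁻¹ = (z * h.s (fv i)) * d * (z * h.s (fv i))⁻¹ := by group
        _ = h.s (fv i) * (z * d * z⁻¹) * (h.s (fv i))⁻¹ := by rw [← h.s_z (fv_lt i)]; group
        _ = _ := by rw [hd.2]; group⟩
    exact hd1 (nf d hd (comm_of_cyc (key 1) (key 2) s12))
  have h5 : a = 3 := by
    rw [ha] at h1
    interval_cases a <;> omega
  subst h5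
  exact ⟨u, k, W, U, ic, ha, by omega⟩

theorem exists_conj_mem (hc : Nat.card G = 86775571046077562880) {U Q : Subgroup G} (hU : Nat.card U = 11 ^ 3)
    (hQ : IsPGroup 11 Q) : ∃ g : G, ∀ x ∈ Q, g * x * g⁻¹ ∈ U := by
  have : Fact (Nat.Prime 11) := ⟨by norm_num⟩
  obtain ⟨P, hP⟩ := hQ.exists_le_sylow
  obtain ⟨P0, hP0⟩ := (IsPGroup.of_card hU).exists_le_sylow
  have e : U = P0 := eq_of_le_of_card_ge hP0 (by
    rw [hU, SmallSimple.card_sylow_eq P0 (a := 3) (m := 65195770883604480) (by rw [hc]; norm_num) (by norm_num)])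
  obtain ⟨g, rfl⟩ := MulAction.exists_smul_eq G P P0
  exact ⟨g, fun x hx => e ▸ smul_mem_pointwise_smul x (MulAut.conj g) (P : Subgroup G) (hP hx)⟩

omit [Finite G] in
theorem isPGroup_zp {x : G} {p : ℕ} (hx : orderOf x = p) : IsPGroup p (zpowers x) :=
  IsPGroup.of_card (n := 1) (by rw [Nat.card_zpowers, hx, pow_one])

theorem InvCent.mul_mem_iff {u z : G} {O : Subgroup G} (ic : InvCent u z O)
    (h : Nat.card (centralizer ({u} : Set G)) = 2 * Nat.card O) {a b : G} (ha : a * u = u * a)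
    (hb : b * u = u * b) : a * b ∈ O ↔ (a ∈ O ↔ b ∈ O) := by
  have h1 := SmallSimple.card_mul_relIndex ic.le
  rw [h, mul_comm 2] at h1
  exact mul_mem_iff_of_index_two (Nat.eq_of_mul_eq_mul_left Nat.card_pos h1) (a := ⟨a, mem_cent.2 ha⟩)
    (b := ⟨b, mem_cent.2 hb⟩)

section
variable {m : MM z} (hf : m.Full) {O : Subgroup G} (ic : InvCent (uu m) (tt m) O)
include hf ic

omit [Finite G] in
theorem card_two_mul : Nat.card (centralizer ({uu m} : Set G)) = 2 * Nat.card O := by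
  have := ic.card
  rw [ord_uu, card_22 hf] at this
  omega

/-- no conjugate of `z` centralises `uu m` -/
theorem noz {w : G} (hw : IsConj z w) (h : w * uu m = uu m * w) : False := by
  have nz : ∀ x, orderOf x = 2 → x ∉ O := fun x hx h1 => by
    have := ic.odd.of_dvd_nat (orderOf_dvd_natCard O h1)
    rw [hx] at this
    exact absurd this (by decide)
  have z2 : orderOf z = 2 := by
    rw [m.z_eq]
    exact Isol.orderOf_eq_two_iff.2 ⟨m.c_sq (ev_four card_15),
      m.c_ne_one (ev_four card_15) (by rw [card_15]; norm_num) (by rw [card_15]; norm_num)⟩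
  have w2 : orderOf w = 2 := by
    obtain ⟨g, rfl⟩ := isConj_iff.1 hw
    rw [Isol.orderOf_conj, z2]
  have h1 := (ic.mul_mem_iff (card_two_mul hf ic) h (uu_tt m).symm).2 (iff_of_false (nz _ w2) (nz _ (ord_tt m)))
  obtain ⟨j, hj⟩ := Isol.exists_zpow_conj_of_odd (Isol.mul_self_of_orderOf_two w2) (tt_sq m)
    (ic.odd.of_dvd_nat (orderOf_dvd_natCard O h1))
  exact hf.nconj _ card_D (hw.trans (isConj_iff.2 ⟨_, hj⟩))

theorem noz' {g y : G} (h : g * uu m * g⁻¹ = y) (hy : y * z = z * y) : False :=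
  noz hf ic (w := g⁻¹ * z * g) (isConj_iff.2 ⟨g⁻¹, by rw [inv_inv]⟩) (by
    calc g⁻¹ * z * g * uu m = g⁻¹ * (z * (g * uu m * g⁻¹)) * g := by group
      _ = _ := by rw [h, ← hy, ← h]; group)

end

/-- the element `uu m` has fewer than 121 fixed points on the conjugates of `V` -/
theorem not_2662 {m : MM z} (hf : m.Full) (hV : Nat.card m.V = 2 ^ 11) (hc : Nat.card G = 86775571046077562880)
    (c5 : ∀ x : G, orderOf x = 5 → Nat.card (centralizer ({x} : Set G)) = 6720) :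
    Nat.card (centralizer ({uu m} : Set G)) ≠ 2662 := by
  intro hY
  set Y := centralizer ({uu m} : Set G) with hYd
  set M := normalizer (m.V : Set G) with hMd
  have cM : Nat.card M = 501397585920 := card_M m hV
  have bt := κ_tt m (g := b0) b0_D
  have ft := κ_tt m (g := f0) f0_D
  have bM : m.κ b0 ∈ M := m.κ_mem_M _
  have fM : m.κ f0 ∈ M := m.κ_mem_M _
  have tu : tt m * uu m * (tt m)⁻¹ = uu m ^ 1 := by rw [conj_eq_of_comm (uu_tt m).symm, pow_one]
  have tbu : tt m * m.κ b0 * uu m * (tt m * m.κ b0)⁻¹ = uu m ^ 10 := by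
    calc _ = tt m * (m.κ b0 * uu m * (m.κ b0)⁻¹) * (tt m)⁻¹ := by group
      _ = _ := by rw [b0_uu, ← conj_pow, tu, pow_one]
  have ne1 : ∀ n r, n * uu m * n⁻¹ = uu m ^ r → r % 11 ≠ 1 → n ≠ 1 := fun n r h hr e => by
    rw [e, one_mul, inv_one, mul_one] at h
    have := pow_eq_pow_iff_modEq.1 ((pow_one _).trans h)
    rw [ord_uu] at this
    exact hr this.symm
  have bad : ∀ n ∈ M, ∀ r, n * uu m * n⁻¹ = uu m ^ r → ¬ 121 ∣ Nat.card (centralizer ({n} : Set G)) →
      {y | y ∈ Y ∧ y⁻¹ * n * y ∈ M}.ncard ≤ 484 := fun n hn r hr h121 => by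
    refine (card_bad_le hn fun y hy => (norm_cent hr y hy).2).trans (show _ ≤ 22 * 22 from Nat.mul_le_mul ?_ ?_)
    · rw [← card_22 hf]
      refine card_le_of_le fun y hy => ⟨hy.1, mem_cent.2 ?_⟩
      obtain ⟨j, -, rfl | rfl⟩ := cent_M m hy.2 (mem_cent.1 hy.1)
      exacts [comm_pow (uu_tt m) j, comm_mul rfl (comm_pow (uu_tt m) j)]
    · have h1 := card_dvd_of_le (inf_le_left : Y ⊓ centralizer ({n} : Set G) ≤ Y)
      have h2 : ¬ 121 ∣ Nat.card (Y ⊓ centralizer ({n} : Set G) : Subgroup G) := fun h =>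
        h121 (dvd_trans h (card_dvd_of_le inf_le_right))
      rw [hY, show 2662 = 2 * 11 ^ 3 by norm_num, Nat.dvd_mul] at h1
      obtain ⟨a, b, ha, hb, e⟩ := h1
      obtain ⟨i, hi, rfl⟩ := (Nat.dvd_prime_pow (by norm_num)).1 hb
      have := Nat.le_of_dvd (by norm_num) ha
      rw [← e] at h2 ⊢
      interval_cases i <;> omega
  have b1 := bad _ (tt_M m) _ tu (not_121 hf hV (Isol.ne_one_of_orderOf_two (ord_tt m)) (tt_sq m))
  have b2 := bad _ bM _ (b0_uu m) (not_121 hf hV (ne1 _ _ (b0_uu m) (by norm_num)) (b0_sq m))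
  have b3 := bad _ (mul_mem (tt_M m) bM) _ tbu (not_121 hf hV (ne1 _ _ tbu (by norm_num)) (by
    rw [mul_assoc, ← mul_assoc (m.κ b0), bt, mul_assoc, b0_sq, mul_one, tt_sq]))
  have b4 := bad _ fM _ (f0_uu m) (by
    have : Fact (Nat.Prime 5) := ⟨by norm_num⟩
    rw [c5 _ (orderOf_eq_prime (f0_pow m) (ne1 _ _ (f0_uu m) (by norm_num)))]; norm_num)
  obtain ⟨y, hy, n1, n2, n3, n4⟩ : ∃ y ∈ Y, y⁻¹ * tt m * y ∉ M ∧ y⁻¹ * m.κ b0 * y ∉ M ∧
      y⁻¹ * (tt m * m.κ b0) * y ∉ M ∧ y⁻¹ * m.κ f0 * y ∉ M := by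
    by_contra hn
    have h1 : (Y : Set G) ⊆ ({y | y ∈ Y ∧ y⁻¹ * tt m * y ∈ M} ∪ {y | y ∈ Y ∧ y⁻¹ * m.κ b0 * y ∈ M}) ∪
        ({y | y ∈ Y ∧ y⁻¹ * (tt m * m.κ b0) * y ∈ M} ∪ {y | y ∈ Y ∧ y⁻¹ * m.κ f0 * y ∈ M}) := fun y hy => by
      by_contra h2
      simp only [Set.mem_union, Set.mem_ofPred_eq, not_or, not_and] at h2
      exact hn ⟨y, hy, h2.1.1 hy, h2.1.2 hy, h2.2.1 hy, h2.2.2 hy⟩
    have h2 := (Set.ncard_le_ncard h1).trans ((Set.ncard_union_le _ _).trans
      (add_le_add ((Set.ncard_union_le _ _).trans (add_le_add b1 b2))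
        ((Set.ncard_union_le _ _).trans (add_le_add b3 b4))))
    rw [← Nat.card_coe_set_eq] at h2
    exact absurd (hY.symm.trans_le h2) (by norm_num)
  set X := M ⊓ M.map (MulAut.conj y).toMonoidHom with hX
  have mX : ∀ {x}, x ∈ X ↔ x ∈ M ∧ y⁻¹ * x * y ∈ M := fun {x} => by rw [hX, mem_inf, mem_map_cj]
  have yu : y⁻¹ * uu m * y = uu m := by rw [mul_assoc, ← mem_cent.1 hy, inv_mul_cancel_left]
  have uX : uu m ∈ X := mX.2 ⟨uu_M m, by rw [yu]; exact uu_M m⟩
  have A0 : ∀ n ∈ X, ∀ a ∈ M, ∀ r, n * uu m * n⁻¹ = uu m ^ r → a * uu m * a⁻¹ = uu m ^ r →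
      a ∈ X ∨ a * tt m ∈ X := fun n hn a ha r h1 h2 => by
    obtain ⟨j, -, e | e⟩ := cent_M m (mul_mem (inv_mem ha) (mX.1 hn).1) (comm_of_conj_eq (by
      calc a⁻¹ * n * uu m * (a⁻¹ * n)⁻¹ = a⁻¹ * (n * uu m * n⁻¹) * a := by group
        _ = _ := by rw [h1, ← h2]; group))
    · left
      rw [show a = n * (uu m ^ j)⁻¹ by rw [← e]; group]
      exact mul_mem hn (inv_mem (pow_mem uX j))
    · right
      rw [show a * tt m = n * (uu m ^ j)⁻¹ by rw [inv_mul_eq_iff_eq_mul.1 e]; group]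
      exact mul_mem hn (inv_mem (pow_mem uX j))
  have A1 : ∀ n ∈ X, n * uu m = uu m * n → n ∈ zpowers (uu m) := fun n hn h => by
    obtain ⟨j, -, rfl | rfl⟩ := cent_M m (mX.1 hn).1 h
    · exact npow_mem_zpowers _ j
    · exact absurd (mX.1 (by simpa using mul_mem hn (inv_mem (pow_mem uX j)))).2 n1
  have A2 : ∀ n ∈ X, ∀ r e, n * uu m * n⁻¹ = uu m ^ r → r ^ e % 11 = 10 ∨ r ^ e % 11 = 3 → False :=
    fun n hn r e h hr => by
    have h1 := conj_pow_pow h e
    rw [← pow_mod_orderOf (uu m), ord_uu] at h1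
    rcases hr with hr | hr <;> rw [hr] at h1
    · rcases A0 _ (pow_mem hn e) _ bM _ h1 (b0_uu m) with h2 | h2
      · exact n2 (mX.1 h2).2
      · exact n3 (bt ▸ (mX.1 h2).2)
    · rcases A0 _ (pow_mem hn e) _ fM _ h1 (f0_uu m) with h2 | h2
      · exact n4 (mX.1 h2).2
      · have h3 := pow_mem h2 6
        rw [Commute.mul_pow ft, pow_succ, f0_pow, one_mul, show 6 = 2 * 3 from rfl, pow_mul, pow_two, tt_sq,
          one_pow, mul_one] at h3
        exact n4 (mX.1 h3).2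
  have A3 : ∀ n ∈ X, n * uu m * n⁻¹ ∈ zpowers (uu m) → n * uu m = uu m * n := fun n hn h => by
    obtain ⟨r, hr, e⟩ := exists_pow_of_mem (ord_uu m) h
    have := fun e' => A2 n hn r e' e
    interval_cases r
    · have h1 := ord_uu m
      rw [conj_eq_one_iff.1 (e.trans (pow_zero _)), orderOf_one] at h1
      norm_num at h1
    · exact comm_of_conj_eq (e.trans (pow_one _))
    all_goals first
      | exact (this 5 (by decide)).elim | exact (this 1 (by decide)).elim | exact (this 2 (by decide)).elim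
      | exact (this 3 (by decide)).elim | exact (this 4 (by decide)).elim
  have : Fact (Nat.Prime 11) := ⟨by norm_num⟩
  have XM : Nat.card X ∣ 501397585920 := cM ▸ card_dvd_of_le inf_le_left
  have ou : orderOf (⟨uu m, uX⟩ : X) = 11 := by rw [orderOf_mk, ord_uu]
  obtain ⟨P, hP⟩ := (isPGroup_zp ou).exists_le_sylow
  have eP : (P : Subgroup X) = zpowers ⟨uu m, uX⟩ := eq_zpowers_of_not_sq (by norm_num) ou P.isPGroup'
    (hP (mem_zpowers _)) fun h => absurd ((h.trans (card_subgroup_dvd_card _)).trans XM) (by norm_num)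
  have zz : ∀ {x : X}, x ∈ zpowers (⟨uu m, uX⟩ : X) ↔ (x : G) ∈ zpowers (uu m) := fun {x} =>
    ⟨fun ⟨k, hk⟩ => ⟨k, congrArg Subtype.val hk⟩, fun ⟨k, hk⟩ => ⟨k, Subtype.ext hk⟩⟩
  have hN : normalizer ((P : Subgroup X) : Set X) ≤ centralizer ((P : Subgroup X) : Set X) := by
    rw [eP, SmallSimple.centralizer_zpowers]
    intro n hn
    exact mem_cent.2 (Subtype.ext (A3 n n.2 (zz.1 ((mem_normalizer_iff.1 hn _).1 (mem_zpowers _)))))
  have hB := MonoidHom.ker_transferSylow_isComplement' P hN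
  set R := (MonoidHom.transferSylow P hN).ker.map X.subtype with hR
  have cR : Nat.card R * 11 = Nat.card X := by
    have cP : Nat.card (P : Subgroup X) = 11 := by rw [eP, Nat.card_zpowers, ou]
    rw [← hB.card_mul_card, card_map_of_injective X.subtype_injective, cP]
  have RX : R ≤ X := map_subtype_le _
  have Rn : ∀ s ∈ R, uu m * s * (uu m)⁻¹ ∈ R := by
    rintro _ ⟨s, hs, rfl⟩
    exact ⟨_, (MonoidHom.normal_ker _).conj_mem s hs ⟨uu m, uX⟩, rfl⟩
  have Rf : ∀ s ∈ R, s * uu m = uu m * s → s = 1 := by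
    rintro _ ⟨s, hs, rfl⟩ e
    have h1 : s ∈ (P : Subgroup X) := eP ▸ zz.2 (A1 s s.2 e)
    exact congrArg Subtype.val (mem_bot.1 (hB.disjoint.le_bot ⟨hs, h1⟩))
  have RM : Nat.card R ∣ 45581598720 := Nat.dvd_of_mul_dvd_mul_right (k := 11) (by norm_num) (cR ▸ XM)
  have R23 : Nat.card R = 23 ^ _ := Nat.eq_prime_pow_of_unique_prime_dvd Nat.card_pos.ne' fun {r} hr hd => by
    have : Fact r.Prime := ⟨hr⟩
    have : IsMulCommutative (zpowers (uu m)) := inferInstance
    obtain ⟨S, hSR, hS, hi, hn⟩ := Coprime.exists_invariant_sylow' r (K := R) (A := zpowers (uu m))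
      (zpowers_le.2 (mem_normalizer_fintype Rn)) (by
        rw [Nat.card_zpowers, ord_uu]
        exact Nat.Coprime.coprime_dvd_right RM (by norm_num)) (Or.inl inferInstance)
    have Sn : ∀ s ∈ S, uu m * s * (uu m)⁻¹ ∈ S := fun s hs => (mem_normalizer_iff.1 (hn (mem_zpowers _)) s).1 hs
    have Sf : ∀ s ∈ S, s * uu m = uu m * s → s = 1 := fun s hs => Rf s (hSR hs)
    have h1 := card_modEq_one (by norm_num) (uu_pow m) Sn Sf
    obtain ⟨k, hk⟩ := hS.exists_card_eq
    have k0 : k ≠ 0 := by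
      rintro rfl
      rw [← SmallSimple.card_mul_relIndex hSR, hk, pow_zero, one_mul] at hd
      exact hi hd
    have h2 : r ^ k ∣ 45581598720 := hk ▸ (card_dvd_of_le hSR).trans RM
    have h3 := hd.trans RM
    rw [hk] at h1
    rcases prime_dvd hr (h3.trans (by norm_num)) with e | e | e | e | e | e | e | e | e | e <;>
      subst e <;> try (first | rfl | exact absurd h3 (by decide))
    · exfalso
      have k10 : 10 ≤ k := by
        by_contra h4
        exact k0 (two_pow_mod h1 (by omega))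
      have SM : S ≤ M := fun s hs => (mX.1 (RX (hSR hs))).1
      obtain ⟨d, hd2, hdS⟩ := exists_duad m hV (two_le_V m SM hS Sn Sf)
        (hk ▸ Nat.pow_le_pow_right (by norm_num) k10)
      have mS : ∀ {x}, x ∈ S.map (MulAut.conj y⁻¹).toMonoidHom ↔ y * x * y⁻¹ ∈ S := fun {x} => by
        rw [mem_map_cj, inv_inv]
      have yu' : y * uu m * y⁻¹ = uu m := conj_eq_of_comm (mem_cent.1 hy)
      have S2 := two_le_V m (S := S.map (MulAut.conj y⁻¹).toMonoidHom)
        (fun s hs => by simpa [mul_assoc] using (mX.1 (RX (hSR (mS.1 hs)))).2) (hS.map _)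
        (fun s hs => mS.2 (by
          have := Sn _ (mS.1 hs)
          rw [← yu'] at this
          simpa [mul_assoc] using this))
        (fun s hs e => conj_eq_one_iff.1 (Sf _ (mS.1 hs) (by rw [← yu', conj_mul, conj_mul, e])))
      have h5 : y⁻¹ * m.c d * y ∈ m.V := S2 (mS.2 (by simpa [mul_assoc] using hdS))
      have yM : y ∈ M := hf.wc y fun v hv => hf.cent_duad d hd2 (mem_cent.2 (by
        have := m.V_comm (mem_map_cj.1 hv) h5
        calc v * m.c d = y * (y⁻¹ * v * y * (y⁻¹ * m.c d * y)) * y⁻¹ := by group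
          _ = _ := by rw [this]; group))
      exact n1 (mul_mem (mul_mem (inv_mem yM) (tt_M m)) yM)
    · have := pow_le_of_dvd (b := 3) h2 (by norm_num)
      interval_cases k <;> omega
    · have := pow_le_of_dvd (b := 1) h2 (by norm_num)
      interval_cases k <;> omega
    · have := pow_le_of_dvd (b := 1) h2 (by norm_num)
      interval_cases k <;> omega
  have h1 : Nat.card R ≤ 23 := by
    have := pow_le_of_dvd (b := 1) (R23 ▸ RM) (by norm_num)
    rw [R23]
    exact (Nat.pow_le_pow_right (by norm_num) this).trans (by norm_num)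
  have h2 := M.card_mul_index
  have h3 := X.card_mul_index
  have h4 : X.index ≤ M.index * M.index := by
    have := index_inf_le (H := M) (K := M.map (MulAut.conj y).toMonoidHom)
    rwa [index_map_of_bijective (MulAut.conj y).bijective] at this
  rw [cM, hc] at h2
  rw [show M.index = 173067389 by omega] at h4
  have := Nat.mul_le_mul (show Nat.card X ≤ 253 by omega) h4
  rw [h3, hc] at this
  norm_num at this

omit [Finite G] in
theorem comm_conj {g x y : G} (h : g * x * g⁻¹ * y = y * (g * x * g⁻¹)) : x * (g⁻¹ * y * g) = g⁻¹ * y * g * x := by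
  calc x * (g⁻¹ * y * g) = g⁻¹ * (g * x * g⁻¹ * y) * g := by group
    _ = _ := by rw [h]; group

section
variable {j : JM z} (hj : j.Good) (hl : Loc j) (hc : Nat.card G = 86775571046077562880)
include hj hl hc

omit hl hc in
theorem not_conj {g y : G} (h : g * uu j.toMM * g⁻¹ = y) (hy : y * z = z * y) : False := by
  obtain ⟨O, ic⟩ := exists_ic' hj.full
  exact noz' hj.full ic h hy

/-- the odd core of `C(uu)` has order 121 -/
theorem exists_core : ∃ O, InvCent (uu j.toMM) (tt j.toMM) O ∧ Nat.card O = 11 ^ 2 ∧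
    Nat.card (centralizer ({uu j.toMM} : Set G)) = 242 := by
  obtain ⟨u, k, U, E⟩ := exists_elv j.toHM2 hl.cent3 hc
  obtain ⟨O, ic⟩ := exists_ic' hj.full
  have h2 := card_two_mul hj.full ic
  obtain ⟨g, hg⟩ := exists_conj_mem hc E.cardU (isPGroup_zp (ord_uu j.toMM))
  have c1 := (comm_conj (mem_cent.1 (E.ic.le (hg _ (mem_zpowers _))))).symm
  have o1 : orderOf (g⁻¹ * u * g) = 11 := by
    have := Isol.orderOf_conj g⁻¹ u
    rwa [inv_inv, E.uu.ord] at this
  have k1 : Nat.card (centralizer ({g⁻¹ * u * g} : Set G)) = 31944 := by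
    rw [← E.cardC]; exact (card_cent_conj (isConj_iff.2 ⟨g⁻¹, by rw [inv_inv]⟩)).symm
  generalize g⁻¹ * u * g = w at c1 o1 k1
  have wO : w ∈ O := by
    have := (ic.mul_mem_iff h2 (comm_pow c1 6) (comm_pow c1 6)).2 Iff.rfl
    rwa [← pow_add, ← pow_mod_orderOf, o1, pow_one] at this
  obtain ⟨a, ha⟩ := card_eq_pow (S := O) (p := 11) fun x hx hq => by
    by_contra hne
    have h3 := orderOf_dvd_natCard (centralizer ({w} : Set G)) (mem_cent.2 (ic.comm_of_coprime hx wO
      (pow_orderOf_eq_one x) (by rw [ord_uu]; exact (Nat.coprime_primes hq (by norm_num)).2 hne)))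
    have h4 := ic.odd.of_dvd_nat (orderOf_dvd_natCard O hx)
    rw [k1] at h3
    have h5 : orderOf x = 3 := by
      rcases prime_dvd hq (h3.trans (by norm_num)) with e | e | e | e | e | e | e | e | e | e <;>
        rw [e] at h3 h4 hne ⊢ <;>
        first | exact absurd h3 (by decide) | exact absurd h4 (by decide) | exact absurd rfl hne
    obtain ⟨c, rfl⟩ := isConj_iff.1 (hl.conj3 x h5)
    exact not_conj hj (g := c⁻¹) rfl (hl.cent3 _ (by
      rw [inv_inv]; exact (comm_conj (mem_cent.1 (ic.le hx))).symm))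
  have h3 : a ≤ 3 := pow_le_of_dvd (ha ▸ card_subgroup_dvd_card O) (by rw [hc]; norm_num)
  have h4 := sq_dvd_cent (by norm_num) (ord_uu j.toMM) (mem_top _) (by rw [card_top, hc]; norm_num)
  rw [top_inf_eq] at h4
  have h5 := not_2662 hj.full (hj.V_eq ▸ hj.wc.card) hc hl.cent5
  rw [ha] at h2
  have h6 : a = 2 := by interval_cases a <;> omega
  subst h6
  exact ⟨O, ic, ha, h2⟩

theorem card_242 : Nat.card (centralizer ({uu j.toMM} : Set G)) = 242 := (exists_core hj hl hc).choose_spec.2.2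

variable {u k : G} {U : Subgroup G} (E : Elv j.toHM u k U)
include E

theorem Elv.exists_uu : ∃ y ∈ U, IsConj (K.uu j.toMM) y ∧ y ∉ zpowers u ∧
    Nat.card (centralizer ({y} : Set G)) = 242 := by
  obtain ⟨g, hg⟩ := exists_conj_mem hc E.cardU (isPGroup_zp (ord_uu j.toMM))
  exact ⟨_, hg _ (mem_zpowers _), isConj_iff.2 ⟨g, rfl⟩, fun h => not_conj hj rfl (comm_zp h E.uu.uz.symm).symm,
    (card_cent_conj (isConj_iff.2 ⟨g, rfl⟩)).symm.trans (card_242 hj hl hc)⟩

theorem Elv.nab : ¬ IsMulCommutative U := fun h => by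
  obtain ⟨y, hy, -, -, h1⟩ := E.exists_uu hj hl hc
  have := card_dvd_of_le (show U ≤ centralizer ({y} : Set G) from fun x hx =>
    mem_cent.2 (congrArg Subtype.val (h.is_comm.comm ⟨x, hx⟩ ⟨y, hy⟩)))
  rw [h1, E.cardU] at this
  norm_num at this

theorem Elv.center {x : G} (hx : x ∈ U) (h : ∀ y ∈ U, y * x = x * y) : x ∈ zpowers u := by
  have : Fact (Nat.Prime 11) := ⟨by norm_num⟩
  have h1 := (SmallSimple.eq_zpowers_of_mem (PGroup.isExtraspecial_of_card_eq_cube E.cardU (E.nab hj hl hc)).2 (x := ⟨u, E.ic.mem⟩)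
    (mem_center_iff.2 fun y => Subtype.ext (mem_cent.1 (E.ic.le y.2))) fun e => by
      have := E.uu.ord
      rw [show u = 1 from congrArg Subtype.val e, orderOf_one] at this
      norm_num at this).2
  obtain ⟨i, hi⟩ : (⟨x, hx⟩ : U) ∈ zpowers ⟨u, E.ic.mem⟩ :=
    h1 ▸ mem_center_iff.2 fun y => Subtype.ext (h y y.2)
  exact ⟨i, congrArg Subtype.val hi⟩

theorem Elv.pow {x : G} (hx : x ∈ U) : x ^ 11 = 1 := by
  have key : ∀ a b : G, a * u = u * a → b * a⁻¹ ∈ zpowers u → b ^ 11 = a ^ 11 := fun a b ha h => by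
    have := pow_zp h
    rw [E.uu.ord] at this
    rw [show b = b * a⁻¹ * a by group, Commute.mul_pow (comm_zp h ha).symm, this, one_mul]
  have xu := mem_cent.1 (E.ic.le hx)
  have h1 : x ^ 11 ∈ zpowers u := E.center hj hl hc (pow_mem hx 11) fun y hy =>
    comm_of_conj_eq (by rw [← conj_pow]; exact key x _ xu (E.ic.comm y hy x hx))
  have h2 := key x⁻¹ (z * x * z⁻¹) (comm_inv xu) (by rw [inv_inv]; exact E.ic.inv x hx)
  rw [conj_pow, conj_eq_of_comm (comm_zp h1 E.uu.uz.symm), inv_pow, eq_inv_iff_mul_eq_one] at h2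
  exact Isol.eq_one_of_odd_of_mul_self (E.ic.odd.of_dvd_nat (orderOf_dvd_natCard U (pow_mem hx 11))) h2

theorem Elv.norm_eq : normalizer (U : Set G) = normalizer (zpowers u : Set G) := by
  refine le_antisymm (fun g hg => SmallSimple.mem_normalizer_zpowers (E.center hj hl hc
    ((mem_normalizer_iff.1 hg u).1 E.ic.mem) fun y hy => ?_)) fun g hg =>
      mem_normalizer_fintype (E.ic.norm g ((mem_normalizer_iff.1 hg u).1 (mem_zpowers u)))
  have := mem_cent.1 (E.ic.le ((mem_normalizer_iff.1 (inv_mem hg) y).1 hy))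
  calc y * (g * u * g⁻¹) = g * (g⁻¹ * y * g⁻¹⁻¹ * u) * g⁻¹ := by group
    _ = _ := by rw [this]; group

theorem Elv.card_norm : Nat.card (normalizer (U : Set G)) = 319440 := by
  rw [E.norm_eq hj hl hc, card_norm_of_conj E.uu.ord (by norm_num) E.uu.isConj_pow, E.cardC]

theorem Elv.two_classes {w : G} (hw : orderOf w = 11) : IsConj u w ∨ IsConj (K.uu j.toMM) w := by
  obtain ⟨g, hg⟩ := exists_conj_mem hc E.cardU (isPGroup_zp hw)
  have c1 : IsConj (g * w * g⁻¹) w := (isConj_iff.2 ⟨g, rfl⟩).symm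
  by_cases h : g * w * g⁻¹ ∈ zpowers u
  · obtain ⟨i, hi, e⟩ := exists_pow_of_mem E.uu.ord h
    refine Or.inl ((E.uu.isConj_pow i hi ?_).trans (e ▸ c1))
    rintro rfl
    rw [conj_eq_one_iff.1 (e.trans (pow_zero _)), orderOf_one] at hw
    norm_num at hw
  obtain ⟨y, hy, cy, yu, h1⟩ := E.exists_uu hj hl hc
  have h2 := Ree.card_eq_ncard_mul (normalizer (U : Set G)) y
  have h3 := Nat.mul_le_mul_left {x | ∃ n ∈ normalizer (U : Set G), n * y * n⁻¹ = x}.ncard
    (card_le_of_le (inf_le_right : normalizer (U : Set G) ⊓ centralizer ({y} : Set G) ≤ _))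
  rw [← h2, h1, E.card_norm hj hl hc] at h3
  have h4 : ((U : Set G) \ zpowers u).ncard = 1320 := by
    rw [Set.ncard_sdiff (zpowers_le.2 E.ic.mem), ← Nat.card_coe_set_eq, ← Nat.card_coe_set_eq]
    show Nat.card U - Nat.card (zpowers u) = _
    rw [E.cardU, Nat.card_zpowers, E.uu.ord]; norm_num
  have h5 := Set.eq_of_subset_of_ncard_le (s := {x | ∃ n ∈ normalizer (U : Set G), n * y * n⁻¹ = x})
    (t := (U : Set G) \ zpowers u) (by
      rintro _ ⟨n, hn, rfl⟩
      refine ⟨(mem_normalizer_iff.1 hn y).1 hy, fun h5 => yu ?_⟩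
      rw [E.norm_eq hj hl hc] at hn
      exact (mem_normalizer_iff.1 hn y).2 h5) (by omega)
  obtain ⟨n, -, e⟩ : g * w * g⁻¹ ∈ {x | ∃ n ∈ normalizer (U : Set G), n * y * n⁻¹ = x} :=
    h5 ▸ ⟨hg w (mem_zpowers w), h⟩
  exact Or.inr (cy.trans ((isConj_iff.2 ⟨n, e⟩).trans c1))

omit E

/-- S5575 -/
theorem sylow_eleven (P : Sylow 11 G) :
    IsExtraspecial 11 (P : Subgroup G) ∧ Nat.card (P : Subgroup G) = 11 ^ 3 ∧ Monoid.exponent (P : Subgroup G) = 11 ∧
    Nat.card (normalizer ((P : Subgroup G) : Set G)) = 2 ^ 4 * 3 * 5 * 11 ^ 3 ∧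
    ∃ K : Subgroup G, K ≤ normalizer ((P : Subgroup G) : Set G) ∧ Nonempty (K ≃* GL (Fin 2) (ZMod 3)) := by
  have : Fact (Nat.Prime 11) := ⟨by norm_num⟩
  obtain ⟨u, k, U, E⟩ := exists_elv j.toHM2 hl.cent3 hc
  have cP := SmallSimple.card_sylow_eq P (a := 3) (m := 65195770883604480) (by rw [hc]; norm_num) (by norm_num)
  obtain ⟨g, hg⟩ := exists_conj_mem hc cP (IsPGroup.of_card E.cardU)
  have e : U.map (MulAut.conj g).toMonoidHom = P := eq_of_le_of_card_ge (by
    rintro _ ⟨x, hx, rfl⟩; exact hg x hx) (by rw [card_map_of_injective (MulAut.conj g).injective, cP, E.cardU])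
  have f : U ≃* (P : Subgroup G) := ((MulAut.conj g).subgroupMap U).trans (MulEquiv.subgroupCongr e)
  have eN : normalizer ((P : Subgroup G) : Set G) = (normalizer (U : Set G)).map (MulAut.conj g).toMonoidHom := by
    rw [← e]; exact (map_equiv_normalizer_eq U (MulAut.conj g)).symm
  refine ⟨PGroup.isExtraspecial_of_card_eq_cube cP fun h => E.nab hj hl hc ⟨⟨fun a b => f.injective ?_⟩⟩,
    cP, ?_, ?_, ?_⟩
  · rw [map_mul, map_mul, h.is_comm.comm]
  · rw [← Monoid.exponent_eq_of_mulEquiv f]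
    refine Nat.dvd_antisymm (Monoid.exponent_dvd_of_forall_pow_eq_one fun x => Subtype.ext (E.pow hj hl hc x.2)) ?_
    have := Monoid.order_dvd_exponent (⟨u, E.ic.mem⟩ : U)
    rwa [orderOf_mk, E.uu.ord] at this
  · rw [eN, card_map_of_injective (MulAut.conj g).injective, E.card_norm hj hl hc]; norm_num
  · obtain ⟨K, hK, ⟨f⟩⟩ := exists_gl23 (nf j.toHM k) E.uu.nf_mul E.uu.nf_inj' E.uu.nf_norm
    rw [← E.norm_eq hj hl hc] at hK
    exact ⟨K.map (MulAut.conj g).toMonoidHom, eN ▸ map_mono hK, ⟨((MulAut.conj g).subgroupMap K).symm.trans f⟩⟩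

/-- S5576 -/
theorem two_classes : ∃ x y : G, orderOf x = 11 ∧ orderOf y = 11 ∧ ¬ IsConj x y ∧
    ∀ w : G, orderOf w = 11 → IsConj w x ∨ IsConj w y := by
  obtain ⟨u, k, U, E⟩ := exists_elv j.toHM2 hl.cent3 hc
  refine ⟨u, _, E.uu.ord, ord_uu j.toMM, fun h => ?_, fun w hw => (E.two_classes hj hl hc hw).imp IsConj.symm IsConj.symm⟩
  obtain ⟨g, e⟩ := isConj_iff.1 h.symm
  exact not_conj hj e E.uu.uz

theorem cent_eleven {w : G} (hw : orderOf w = 11) : Nat.card (centralizer ({w} : Set G)) ∣ 31944 := by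
  obtain ⟨u, k, U, E⟩ := exists_elv j.toHM2 hl.cent3 hc
  rcases E.two_classes hj hl hc hw with h | h <;> rw [← card_cent_conj h]
  · rw [E.cardC]
  · rw [card_242 hj hl hc]; norm_num

end

end CfsgLib.J4T.K
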