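import Mathlib
import Cfsg.Agent.Lib.J4T.Eleven
import Cfsg.Agent.Lib.Classical.SLCard

/-!
# Groups of Janko-four type: the primes 23, 29, 31, 37, 43
-/

set_option autoImplicit false
set_option Elab.async false

namespace CfsgLib.J4T.K

open Cfsg CfsgLib.Golay CfsgLib.M24E CfsgLib.LargeExtra Subgroup
open scoped Pointwise

variable {G : Type*} [Group G] [Finite G] {z : G}

theorem divs {c : ℕ} (h : c ∣ 32897107) : ∃ a ∈ [1, 23], ∃ b ∈ [1, 29], ∃ d ∈ [1, 31], ∃ e ∈ [1, 37], ∃ f ∈ [1, 43],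
    c = a * (b * (d * (e * f))) := by
  obtain ⟨a, _, ha, h1, rfl⟩ := (Nat.dvd_mul (m := 23) (n := 29 * (31 * (37 * 43)))).1 (h.trans (by norm_num))
  obtain ⟨b, _, hb, h2, rfl⟩ := Nat.dvd_mul.1 h1
  obtain ⟨d, _, hd, h3, rfl⟩ := Nat.dvd_mul.1 h2
  obtain ⟨e, f, he, hf, rfl⟩ := Nat.dvd_mul.1 h3
  have k : ∀ {a p : ℕ}, p.Prime → a ∣ p → a ∈ [1, p] := fun hp h => by simpa using (Nat.dvd_prime hp).1 h
  exact ⟨a, k (by norm_num) ha, b, k (by norm_num) hb, d, k (by norm_num) hd, e, k (by norm_num) he,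
    f, k (by norm_num) hf, rfl⟩

theorem arith : ∀ p ∈ [23, 29, 31, 37, 43], ∀ a ∈ [1, 23], ∀ b ∈ [1, 29], ∀ d ∈ [1, 31], ∀ e ∈ [1, 37],
    ∀ f ∈ [1, 43], ∀ r < 43, p ∣ a * (b * (d * (e * f))) → r ∣ p - 1 →
    86775571046077562880 / (a * (b * (d * (e * f))) * r) % p = 1 →
    (∀ s ∈ [2, 3, 5, 7, 11], s ∣ r → a * (b * (d * (e * f))) % s = 1 % s) →
    (a * (b * (d * (e * f))) = p ∧ (p, r) ∈ [(23, 22), (29, 28), (31, 10), (37, 12), (43, 14)]) ∨
      (p = 31 ∧ ¬ 5 ∣ a * (b * (d * (e * f))) * r) ∨ (p ≠ 31 ∧ 31 ∣ a * (b * (d * (e * f)))) ∨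
      (p ≠ 31 ∧ p ≠ 43 ∧ 43 ∣ a * (b * (d * (e * f)))) ∨ (p = 37 ∧ 23 ∣ a * (b * (d * (e * f)))) := by
  decide +kernel

theorem card_norm_eq {p m : ℕ} (hp : p.Prime) (hG : Nat.card G = p * m) (hm : ¬ p ∣ m) {x y : G}
    (hx : orderOf x = p) (hy : orderOf y = p) :
    Nat.card (normalizer (zpowers x : Set G)) = Nat.card (normalizer (zpowers y : Set G)) := by
  have : Fact p.Prime := ⟨hp⟩
  have key : ∀ x : G, orderOf x = p →
      Nat.card (normalizer (zpowers x : Set G)) * Nat.card (Sylow p G) = Nat.card G := fun x hx => by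
    obtain ⟨P, hP⟩ := (isPGroup_zp hx).exists_le_sylow
    have e : zpowers x = P := eq_of_le_of_card_ge hP (by
      rw [SmallSimple.card_sylow_eq P (a := 1) (by rw [pow_one]; exact hG) hm, Nat.card_zpowers, hx, pow_one])
    rw [e, P.card_eq_index_normalizer]
    exact card_mul_index _
  exact Nat.eq_of_mul_eq_mul_right Nat.card_pos ((key x hx).trans (key y hy).symm)

section
variable {j : JM z} (hj : j.Good) (hl : Loc j) (hc : Nat.card G = 86775571046077562880)
include hj hl hc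

theorem small_cent {x y : G} {r p : ℕ} (hr : r ∈ [2, 3, 5, 7, 11]) (hy : orderOf y = r) (h : x * y = y * x)
    (hx : x ^ p = 1) (hp : p.Coprime 2637787299840) : x = 1 := by
  have key : ∀ n, Nat.card (centralizer ({y} : Set G)) ∣ n → n ∣ 2637787299840 → x = 1 := fun n h1 h2 =>
    eq_one_of_coprime hx (orderOf_dvd_iff_pow_eq_one.1
      ((orderOf_dvd_natCard _ (mem_cent.2 h)).trans (h1.trans h2))) hp
  have hp2 : p.Coprime 21799895040 := Nat.Coprime.coprime_dvd_right (by norm_num) hp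
  simp only [List.mem_cons, List.not_mem_nil, or_false] at hr
  rcases hr with rfl | rfl | rfl | rfl | rfl
  · exact eq_one_of_invol hj.full (Isol.ne_one_of_orderOf_two hy) (Isol.mul_self_of_orderOf_two hy) h hx hp2
  · refine key 21799895040 ?_ (by norm_num)
    rw [← card_cent_conj (hl.conj3 y hy), ← hj.full.card_H]
    exact card_dvd_of_le fun w hw => mem_cent.2 (hl.cent3 w (mem_cent.1 hw))
  · exact key _ (hl.cent5 y hy).dvd (by norm_num)
  · exact key _ (hl.cent7 y hy).dvd (by norm_num)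
  · exact key _ (cent_eleven hj hl hc hy) (by norm_num)

theorem cent_dvd {x : G} {p : ℕ} (hx : orderOf x = p) (h1 : 1 < p) (hp : p.Coprime 2637787299840) :
    Nat.card (centralizer ({x} : Set G)) ∣ 32897107 := by
  refine Nat.Coprime.dvd_of_dvd_mul_left (m := 2637787299840) (Nat.coprime_of_dvd fun q hq h2 h3 => ?_) ?_
  · obtain ⟨y, hy, e⟩ := exists_ord hq h2
    have h4 : q ∈ [2, 3, 5, 7, 11] := by
      rcases prime_dvd hq (h3.trans (by norm_num)) with e | e | e | e | e | e | e | e | e | e <;> subst e <;>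
        first | decide | exact absurd h3 (by decide)
    rw [small_cent hj hl hc h4 e (mem_cent.1 hy).symm (hx ▸ pow_orderOf_eq_one x) hp, orderOf_one] at hx
    omega
  · exact (card_subgroup_dvd_card _).trans (by rw [hc])

theorem cand {x : G} {p : ℕ} (hp : p ∈ [23, 29, 31, 37, 43]) (hx : orderOf x = p) :
    (Nat.card (centralizer ({x} : Set G)) = p ∧ ∃ r, Nat.card (normalizer (zpowers x : Set G)) = p * r ∧
        (p, r) ∈ [(23, 22), (29, 28), (31, 10), (37, 12), (43, 14)]) ∨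
      (p = 31 ∧ ¬ 5 ∣ Nat.card (normalizer (zpowers x : Set G))) ∨
      (p ≠ 31 ∧ 31 ∣ Nat.card (centralizer ({x} : Set G))) ∨
      (p ≠ 31 ∧ p ≠ 43 ∧ 43 ∣ Nat.card (centralizer ({x} : Set G))) ∨
      (p = 37 ∧ 23 ∣ Nat.card (centralizer ({x} : Set G))) := by
  have h0 : ∀ p ∈ [23, 29, 31, 37, 43], Nat.Prime p ∧ p.Coprime 2637787299840 ∧ p ≤ 43 ∧
      86775571046077562880 = p * (86775571046077562880 / p) ∧ ¬ p ∣ 86775571046077562880 / p := by
    simp only [List.mem_cons, List.not_mem_nil, or_false, forall_eq_or_imp, forall_eq]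
    norm_num
  obtain ⟨h1, h2, h3, h4, h5⟩ := h0 p hp
  obtain ⟨r, n, hr, hn, e1, e2⟩ := sylow_prime h1 (hc.trans h4) h5 hx
  have h6 := cent_dvd hj hl hc hx h1.one_lt h2
  have h7 : ∀ s ∈ [2, 3, 5, 7, 11], s ∣ r → Nat.card (centralizer ({x} : Set G)) % s = 1 % s := fun s hs h => by
    have ps : s.Prime := by
      simp only [List.mem_cons, List.not_mem_nil, or_false] at hs
      rcases hs with rfl | rfl | rfl | rfl | rfl <;> norm_num
    obtain ⟨y, hy, e⟩ := exists_ord ps (e1 ▸ Dvd.dvd.mul_left h _)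
    obtain ⟨i, -, hi⟩ := exists_pow_of_mem hx ((mem_normalizer_iff.1 hy x).1 (mem_zpowers x))
    exact card_modEq_one ps (e ▸ pow_orderOf_eq_one y) (fun w hw => (norm_cent hi w hw).2) fun w hw h8 =>
      small_cent hj hl hc hs e h8 (orderOf_dvd_iff_pow_eq_one.1 ((orderOf_dvd_natCard _ hw).trans h6)) (by norm_num)
  have h8 := hx ▸ orderOf_dvd_natCard (centralizer ({x} : Set G)) (mem_cent.2 rfl)
  rw [e1]
  obtain ⟨a, ha, b, hb, d, hd, e, he, f, hf, e3⟩ := divs h6
  rw [e3] at h7 h8 e2 ⊢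
  have h9 : r < 43 := by
    have := Nat.le_of_dvd (by have := h1.one_lt; omega) hr
    omega
  rw [hc] at e2
  refine (arith p hp a ha b hb d hd e he f hf r h9 h8 hr (by
    rw [← e2, Nat.mul_div_cancel _ (Nat.pos_of_ne_zero fun h => by rw [h] at e2; omega)]; exact hn) h7).imp_left ?_
  exact fun h => ⟨h.1, r, by rw [h.1], h.2⟩

theorem five_dvd {x : G} (hx : orderOf x = 31) : 5 ∣ Nat.card (normalizer (zpowers x : Set G)) := by
  obtain ⟨B, ⟨f⟩⟩ := hl.sl5
  have cB : Nat.card B = 31 * 322560 := by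
    have h := Classical.sl_card_mul (ι := Fin 5) (F := ZMod 2)
    have hG : Nat.card (GL (Fin 5) (ZMod 2)) = 9999360 := by
      rw [Matrix.card_GL_field, ZMod.card]; decide
    rw [hG, ZMod.card, ← Nat.card_congr f.toEquiv] at h
    omega
  have : Fact (Nat.Prime 31) := ⟨by norm_num⟩
  obtain ⟨y, hy⟩ := exists_prime_orderOf_dvd_card' (G := B) 31 (by rw [cB]; norm_num)
  have hy' : orderOf (y : G) = 31 := by rw [orderOf_coe, hy]
  obtain ⟨r, n, hr, hn, e1, e2⟩ := sylow_prime (by norm_num) cB (by norm_num) hy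
  have h1 : Nat.card (centralizer ({y} : Set B)) ∣ Nat.card (centralizer ({(y : G)} : Set G)) := by
    rw [← card_map_of_injective B.subtype_injective]
    refine card_dvd_of_le ?_
    rintro _ ⟨w, hw, rfl⟩
    exact mem_cent.2 (congrArg Subtype.val (mem_cent.1 hw))
  have h2 : Nat.card (normalizer (zpowers y : Set B)) ∣ Nat.card (normalizer (zpowers (y : G) : Set G)) := by
    rw [← card_map_of_injective B.subtype_injective]
    refine card_dvd_of_le ?_
    rintro _ ⟨w, hw, rfl⟩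
    obtain ⟨i, hi⟩ := (mem_normalizer_iff.1 hw y).1 (mem_zpowers y)
    exact SmallSimple.mem_normalizer_zpowers ⟨i, congrArg Subtype.val hi⟩
  have h3 := Nat.dvd_gcd (h1.trans (cent_dvd hj hl hc hy' (by norm_num) (by norm_num))) (card_subgroup_dvd_card _)
  have h4 := hy ▸ orderOf_dvd_natCard (centralizer ({y} : Set B)) (mem_cent.2 rfl)
  rw [cB] at h3 e2
  rw [show Nat.gcd 32897107 (31 * 322560) = 31 by norm_num] at h3
  rw [Nat.dvd_antisymm h3 h4] at e1 e2
  rw [card_norm_eq (m := 2799211969228308480) (by norm_num) (by rw [hc]) (by norm_num) hx hy']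
  refine dvd_trans ?_ h2
  have h5 := Nat.le_of_dvd (by norm_num) hr
  have h6 : n * r = 322560 := by
    rw [mul_left_comm] at e2
    omega
  have h7 := Nat.mul_mod n r 31
  rw [h6, hn, one_mul] at h7
  omega

theorem big {p : ℕ} (hp : p ∈ [23, 29, 31, 37, 43]) {x : G} (hx : orderOf x = p) :
    Nat.card (centralizer ({x} : Set G)) = p ∧ ∃ r, Nat.card (normalizer (zpowers x : Set G)) = p * r ∧
      (p, r) ∈ [(23, 22), (29, 28), (31, 10), (37, 12), (43, 14)] := by
  have sym : ∀ q : ℕ, q.Prime → (∀ y : G, orderOf y = q → Nat.card (centralizer ({y} : Set G)) = q) →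
      ∀ (x : G) p, orderOf x = p → q ∣ Nat.card (centralizer ({x} : Set G)) → p ∣ q := fun q hq h x p hx h1 => by
    obtain ⟨y, hy, e⟩ := exists_ord hq h1
    exact hx ▸ h y e ▸ orderOf_dvd_natCard _ (mem_cent.2 (mem_cent.1 hy).symm)
  have s31 := sym 31 (by norm_num) fun y hy => by
    rcases cand hj hl hc (by decide) hy with h | h | h | h | h
    exacts [h.1, absurd (five_dvd hj hl hc hy) h.2, absurd rfl h.1, absurd rfl h.1, absurd h.1 (by decide)]
  have s43 := sym 43 (by norm_num) fun y hy => by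
    rcases cand hj hl hc (by decide) hy with h | h | h | h | h
    exacts [h.1, absurd h.1 (by decide), absurd (s31 y _ hy h.2) (by decide), absurd rfl h.2.1,
      absurd h.1 (by decide)]
  have s23 := sym 23 (by norm_num) fun y hy => by
    rcases cand hj hl hc (by decide) hy with h | h | h | h | h
    exacts [h.1, absurd h.1 (by decide), absurd (s31 y _ hy h.2) (by decide), absurd (s43 y _ hy h.2.2) (by decide),
      absurd h.1 (by decide)]
  have k : ∀ p ∈ [23, 29, 31, 37, 43], (p ∣ 31 → p = 31) ∧ (p ∣ 43 → p = 43) ∧ (p ∣ 23 → p ≠ 37) := by decide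
  rcases cand hj hl hc hp hx with h | h | h | h | h
  exacts [h, absurd (five_dvd hj hl hc (h.1 ▸ hx)) h.2, absurd ((k p hp).1 (s31 x _ hx h.2)) h.1,
    absurd ((k p hp).2.1 (s43 x _ hx h.2.2)) h.2.1, absurd h.1 ((k p hp).2.2 (s23 x _ hx h.2))]

theorem big_sylow {p r : ℕ} (hp : (p, r) ∈ [(23, 22), (29, 28), (31, 10), (37, 12), (43, 14)]) (U : Sylow p G) :
    centralizer ((U : Subgroup G) : Set G) = (U : Subgroup G) ∧
      Nat.card (normalizer ((U : Subgroup G) : Set G)) = p * r := by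
  have h0 : ∀ q ∈ [(23, 22), (29, 28), (31, 10), (37, 12), (43, 14)], Nat.Prime q.1 ∧ q.1 ∈ [23, 29, 31, 37, 43] ∧
      86775571046077562880 = q.1 ^ 1 * (86775571046077562880 / q.1) ∧ ¬ q.1 ∣ 86775571046077562880 / q.1 ∧
      ∀ s, (q.1, s) ∈ [(23, 22), (29, 28), (31, 10), (37, 12), (43, 14)] → s = q.2 := by
    simp only [List.mem_cons, List.not_mem_nil, or_false, forall_eq_or_imp, forall_eq]
    norm_num
  obtain ⟨h1, h2, h3, h4, h5⟩ := h0 _ hp
  have : Fact p.Prime := ⟨h1⟩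
  have h6 := (SmallSimple.card_sylow_eq U (hc.trans h3) h4).trans (pow_one p)
  obtain ⟨x, hx, e⟩ := exists_ord h1 h6.symm.dvd
  have h7 := (SmallSimple.eq_zpowers_of_mem h6 hx fun h => h1.one_lt.ne (by rw [← e, h, orderOf_one])).2
  obtain ⟨h8, s, h9, hs⟩ := big hj hl hc h2 e
  rw [h7, SmallSimple.centralizer_zpowers, h9, h5 s hs]
  exact ⟨(eq_of_le_of_card_ge (zpowers_le.2 (mem_cent.2 rfl)) (by rw [h8, Nat.card_zpowers, e])).symm, rfl⟩

/-- S5577 -/
theorem large_primes :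
    (∀ U : Sylow 23 G, centralizer ((U : Subgroup G) : Set G) = (U : Subgroup G) ∧
      Nat.card (normalizer ((U : Subgroup G) : Set G)) = 23 * 22) ∧
    (∀ U : Sylow 29 G, centralizer ((U : Subgroup G) : Set G) = (U : Subgroup G) ∧
      Nat.card (normalizer ((U : Subgroup G) : Set G)) = 29 * 28) ∧
    (∀ U : Sylow 31 G, centralizer ((U : Subgroup G) : Set G) = (U : Subgroup G) ∧
      Nat.card (normalizer ((U : Subgroup G) : Set G)) = 31 * 10) ∧
    (∀ U : Sylow 37 G, centralizer ((U : Subgroup G) : Set G) = (U : Subgroup G) ∧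
      Nat.card (normalizer ((U : Subgroup G) : Set G)) = 37 * 12) ∧
    (∀ U : Sylow 43 G, centralizer ((U : Subgroup G) : Set G) = (U : Subgroup G) ∧
      Nat.card (normalizer ((U : Subgroup G) : Set G)) = 43 * 14) :=
  ⟨big_sylow hj hl hc (by decide), big_sylow hj hl hc (by decide), big_sylow hj hl hc (by decide),
    big_sylow hj hl hc (by decide), big_sylow hj hl hc (by decide)⟩

end

end CfsgLib.J4T.K
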