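import Mathlib

/-!
# Counting conjugacy classes

`NC H X n`: the set `X` has a system of `n` representatives for conjugacy under `H`.  Unions, control of fusion,
the decomposition of an element into commuting parts of coprime orders, Sylow subgroups of prime order.
-/

set_option autoImplicit false
set_option linter.unusedSectionVars false

namespace CfsgLib.J4T.C62

open Subgroup

variable {G : Type*} [Group G]

/-- `R` is a system of representatives of `X` for conjugacy under `H` -/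
structure Reps (H : Subgroup G) (X : Set G) (R : Finset G) : Prop where
  mem : ∀ r ∈ R, r ∈ X
  cov : ∀ x ∈ X, ∃ r ∈ R, ∃ h ∈ H, h * r * h⁻¹ = x
  sep : ∀ r ∈ R, ∀ r' ∈ R, ∀ h ∈ H, h * r * h⁻¹ = r' → r = r'

/-- `X` has `n` representatives for conjugacy under `H` -/
def NC (H : Subgroup G) (X : Set G) (n : ℕ) : Prop := ∃ R : Finset G, R.card = n ∧ Reps H X R

variable {H : Subgroup G} {X Y : Set G} {n m : ℕ}

theorem NC.of_fun (f : Fin n → G) (h1 : ∀ i, f i ∈ X) (h2 : ∀ x ∈ X, ∃ i, ∃ h ∈ H, h * f i * h⁻¹ = x)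
    (h3 : ∀ i j, ∀ h ∈ H, h * f i * h⁻¹ = f j → i = j) : NC H X n := by
  classical
  refine ⟨Finset.univ.image f, ?_, ?_, ?_, ?_⟩
  · rw [Finset.card_image_of_injective _ fun i j e => h3 i j 1 (one_mem _) (by simpa using e)]
    simp
  · intro r hr
    obtain ⟨i, -, rfl⟩ := Finset.mem_image.1 hr
    exact h1 i
  · intro x hx
    obtain ⟨i, h, hh, e⟩ := h2 x hx
    exact ⟨f i, Finset.mem_image_of_mem _ (Finset.mem_univ _), h, hh, e⟩
  · intro r hr r' hr' h hh e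
    obtain ⟨i, -, rfl⟩ := Finset.mem_image.1 hr
    obtain ⟨j, -, rfl⟩ := Finset.mem_image.1 hr'
    rw [h3 i j h hh e]

theorem NC.one {r : G} (h1 : r ∈ X) (h2 : ∀ x ∈ X, ∃ h ∈ H, h * r * h⁻¹ = x) : NC H X 1 :=
  NC.of_fun (fun _ => r) (fun _ => h1) (fun x hx => ⟨0, h2 x hx⟩) fun _ _ _ _ _ => Subsingleton.elim _ _

theorem NC.two {r s : G} (h1 : r ∈ X) (h1' : s ∈ X)
    (h2 : ∀ x ∈ X, (∃ h ∈ H, h * r * h⁻¹ = x) ∨ ∃ h ∈ H, h * s * h⁻¹ = x)
    (h3 : ∀ h ∈ H, h * r * h⁻¹ ≠ s) : NC H X 2 := by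
  refine NC.of_fun ![r, s] (fun i => by fin_cases i <;> assumption)
    (fun x hx => (h2 x hx).elim (fun h => ⟨0, h⟩) fun h => ⟨1, h⟩) fun i j h hh e => ?_
  fin_cases i <;> fin_cases j
  · rfl
  · exact (h3 h hh e).elim
  · exact (h3 h⁻¹ (inv_mem hh) (by rw [show r = h * s * h⁻¹ from e.symm]; group)).elim
  · rfl

theorem NC.congr (h : NC H X n) (e : ∀ x, x ∈ X ↔ x ∈ Y) : NC H Y n := (Set.ext e : X = Y) ▸ h

theorem NC.cast (h : NC H X n) (e : n = m) : NC H X m := e ▸ h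

theorem NC.union (h : NC H X n) (h' : NC H Y m) (hd : ∀ x ∈ X, ∀ g ∈ H, g * x * g⁻¹ ∉ Y) :
    NC H (X ∪ Y) (n + m) := by
  classical
  obtain ⟨R, rfl, hR⟩ := h
  obtain ⟨S, rfl, hS⟩ := h'
  refine ⟨R ∪ S, Finset.card_union_of_disjoint (Finset.disjoint_left.2 fun a ha hb =>
    hd a (hR.mem a ha) 1 (one_mem _) (by simpa using hS.mem a hb)), ?_, ?_, ?_⟩
  · intro r hr
    exact (Finset.mem_union.1 hr).elim (fun h => Or.inl (hR.mem r h)) fun h => Or.inr (hS.mem r h)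
  · rintro x (hx | hx)
    · obtain ⟨r, hr, h⟩ := hR.cov x hx
      exact ⟨r, Finset.mem_union_left _ hr, h⟩
    · obtain ⟨r, hr, h⟩ := hS.cov x hx
      exact ⟨r, Finset.mem_union_right _ hr, h⟩
  · intro r hr r' hr' h hh e
    rcases Finset.mem_union.1 hr with h1 | h1 <;> rcases Finset.mem_union.1 hr' with h2 | h2
    · exact hR.sep r h1 r' h2 h hh e
    · exact (hd r (hR.mem r h1) h hh (e ▸ hS.mem r' h2)).elim
    · refine (hd r' (hR.mem r' h2) h⁻¹ (inv_mem hh) ?_).elim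
      rw [← e, show h⁻¹ * (h * r * h⁻¹) * h⁻¹⁻¹ = r by group]
      exact hS.mem r h1
    · exact hS.sep r h1 r' h2 h hh e

/-- splitting along an invariant property -/
theorem NC.split (P : G → Prop) (hP : ∀ x ∈ X, ∀ g ∈ H, P x → P (g * x * g⁻¹))
    (h : NC H {x | x ∈ X ∧ P x} n) (h' : NC H {x | x ∈ X ∧ ¬ P x} m) : NC H X (n + m) :=
  (h.union h' fun x hx g hg hy => hy.2 (hP x hx.1 g hg hx.2)).congr fun x => by
    simp only [Set.mem_union, Set.mem_ofPred_eq]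
    tauto

/-- control of fusion -/
theorem NC.ctrl {S : Subgroup G} {F : Set G} (h : NC S F n) (hS : S ≤ H) (hF : F ⊆ X)
    (h1 : ∀ x ∈ X, ∃ y ∈ F, ∃ g ∈ H, g * y * g⁻¹ = x)
    (h2 : ∀ x ∈ F, ∀ g ∈ H, g * x * g⁻¹ ∈ F → ∃ s ∈ S, s * x * s⁻¹ = g * x * g⁻¹) : NC H X n := by
  obtain ⟨R, rfl, hR⟩ := h
  refine ⟨R, rfl, fun r hr => hF (hR.mem r hr), fun x hx => ?_, fun r hr r' hr' g hg e => ?_⟩
  · obtain ⟨y, hy, g, hg, rfl⟩ := h1 x hx
    obtain ⟨r, hr, s, hs, rfl⟩ := hR.cov y hy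
    exact ⟨r, hr, g * s, mul_mem hg (hS hs), by group⟩
  · obtain ⟨s, hs, e'⟩ := h2 r (hR.mem r hr) g hg (e ▸ hR.mem r' hr')
    exact hR.sep r hr r' hr' s hs (e'.trans e)

theorem NC.card_conj (h : NC (⊤ : Subgroup G) Set.univ n) : Nat.card (ConjClasses G) = n := by
  obtain ⟨R, rfl, hR⟩ := h
  rw [← Nat.card_eq_finsetCard]
  refine (Nat.card_congr (Equiv.ofBijective (fun r : R => ConjClasses.mk (r : G)) ⟨fun a b e => ?_, fun c => ?_⟩)).symm
  · obtain ⟨g, hg⟩ := isConj_iff.1 (ConjClasses.mk_eq_mk_iff_isConj.1 e)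
    exact Subtype.ext (hR.sep a a.2 b b.2 g (mem_top _) hg)
  · obtain ⟨x, rfl⟩ := ConjClasses.mk_surjective c
    obtain ⟨r, hr, g, -, e⟩ := hR.cov x trivial
    exact ⟨⟨r, hr⟩, ConjClasses.mk_eq_mk_iff_isConj.2 (isConj_iff.2 ⟨g, e⟩)⟩

/-- transport along an isomorphism -/
theorem NC.of_equiv {D : Type*} [Group D] (I : Subgroup G) (e : I ≃* D)
    (h : NC (⊤ : Subgroup D) Set.univ n) : NC I (I : Set G) n := by
  classical
  obtain ⟨R, rfl, hR⟩ := h
  have hi : Function.Injective fun d : D => ((e.symm d : I) : G) :=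
    Subtype.val_injective.comp e.symm.injective
  refine ⟨R.image fun d => ((e.symm d : I) : G), Finset.card_image_of_injective _ hi, ?_, ?_, ?_⟩
  · intro r hr
    obtain ⟨d, -, rfl⟩ := Finset.mem_image.1 hr
    exact (e.symm d).2
  · intro x hx
    obtain ⟨r, hr, g, -, h⟩ := hR.cov (e ⟨x, hx⟩) trivial
    refine ⟨_, Finset.mem_image_of_mem _ hr, e.symm g, (e.symm g).2, ?_⟩
    have := congrArg (fun d => ((e.symm d : I) : G)) h
    simpa using this
  · intro r hr r' hr' g hg h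
    obtain ⟨d, hd, rfl⟩ := Finset.mem_image.1 hr
    obtain ⟨d', hd', rfl⟩ := Finset.mem_image.1 hr'
    rw [hR.sep d hd d' hd' (e ⟨g, hg⟩) (mem_top _) (hi (by simpa using h))]

/-! ### commuting parts of coprime orders -/

theorem exists_exp {q m : ℕ} (h : q.Coprime m) : ∃ e, e ≡ 1 [MOD q] ∧ e ≡ 0 [MOD m] :=
  ⟨Nat.chineseRemainder h 1 0, (Nat.chineseRemainder h 1 0).2⟩

theorem pow_eq_of_modEq {x : G} {q a b : ℕ} (hx : x ^ q = 1) (h : a ≡ b [MOD q]) : x ^ a = x ^ b :=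
  pow_eq_pow_iff_modEq.2 (h.of_dvd (orderOf_dvd_of_pow_eq_one hx))

theorem part_pow {q m e : ℕ} (h1 : e ≡ 1 [MOD q]) (h2 : e ≡ 0 [MOD m]) {x y : G} (hx : x ^ q = 1)
    (hy : y ^ m = 1) (hc : y * x = x * y) : (x * y) ^ e = x := by
  rw [Commute.mul_pow (show Commute x y from hc.symm), pow_eq_of_modEq hx h1, pow_eq_of_modEq hy h2]
  simp

theorem exists_parts {q m : ℕ} (h : q.Coprime m) {g : G} (hg : g ^ (q * m) = 1) :
    ∃ x y, x ^ q = 1 ∧ y ^ m = 1 ∧ y * x = x * y ∧ g = x * y := by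
  obtain ⟨e, h1, h2⟩ := exists_exp h
  obtain ⟨f, h3, h4⟩ := exists_exp h.symm
  refine ⟨g ^ e, g ^ f, ?_, ?_, by rw [← pow_add, ← pow_add, add_comm], ?_⟩
  · rw [← pow_mul, pow_eq_of_modEq hg (b := 0), pow_zero]
    exact Nat.modEq_zero_iff_dvd.2 (mul_comm q m ▸ Nat.mul_dvd_mul (Nat.modEq_zero_iff_dvd.1 h2) dvd_rfl)
  · rw [← pow_mul, pow_eq_of_modEq hg (b := 0), pow_zero]
    exact Nat.modEq_zero_iff_dvd.2 (Nat.mul_dvd_mul (Nat.modEq_zero_iff_dvd.1 h4) dvd_rfl)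
  · rw [← pow_add, pow_eq_of_modEq hg (b := 1), pow_one]
    exact (Nat.modEq_and_modEq_iff_modEq_mul h).1 ⟨by simpa using h1.add h4, by simpa using h2.add h3⟩

/-- the elements with `q`-part conjugate to `a` -/
theorem NC.part {q m : ℕ} (hc : q.Coprime m) {a : G} (ha : a ^ q = 1)
    (h : NC (centralizer {a}) {y | y ^ m = 1 ∧ y * a = a * y} n) :
    NC ⊤ {g | ∃ x y, IsConj a x ∧ y ^ m = 1 ∧ y * x = x * y ∧ g = x * y} n := by
  classical
  obtain ⟨e, h1, h2⟩ := exists_exp hc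
  obtain ⟨R, rfl, hR⟩ := h
  refine ⟨R.image fun y => a * y, Finset.card_image_of_injective _ (mul_right_injective a), ?_, ?_, ?_⟩
  · intro r hr
    obtain ⟨y, hy, rfl⟩ := Finset.mem_image.1 hr
    exact ⟨a, y, IsConj.refl a, (hR.mem y hy).1, (hR.mem y hy).2, rfl⟩
  · rintro _ ⟨x, y, hx, hy, hxy, rfl⟩
    obtain ⟨g, rfl⟩ := isConj_iff.1 hx
    obtain ⟨r, hr, c, hc, e⟩ := hR.cov (g⁻¹ * y * g) ⟨by
      rw [show g⁻¹ * y * g = g⁻¹ * y * g⁻¹⁻¹ by group, conj_pow, hy]; group, by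
      calc g⁻¹ * y * g * a = g⁻¹ * (y * (g * a * g⁻¹)) * g := by group
        _ = a * (g⁻¹ * y * g) := by rw [hxy]; group⟩
    refine ⟨_, Finset.mem_image_of_mem _ hr, g * c, mem_top _, ?_⟩
    have h3 : a * c = c * a := mem_centralizer_iff.1 hc a rfl
    calc g * c * (a * r) * (g * c)⁻¹ = g * (c * a) * r * c⁻¹ * g⁻¹ := by group
      _ = g * a * (c * r * c⁻¹) * g⁻¹ := by rw [← h3]; group
      _ = g * a * g⁻¹ * y := by rw [e]; group
  · intro r hr r' hr' g _ h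
    obtain ⟨y, hy, rfl⟩ := Finset.mem_image.1 hr
    obtain ⟨y', hy', rfl⟩ := Finset.mem_image.1 hr'
    have h3 : g * a * g⁻¹ = a := by
      have := congrArg (· ^ e) h
      simp only [conj_pow] at this
      rwa [part_pow h1 h2 ha (hR.mem y hy).1 (hR.mem y hy).2,
        part_pow h1 h2 ha (hR.mem y' hy').1 (hR.mem y' hy').2] at this
    have h4 : g * y * g⁻¹ = y' := by
      apply mul_left_cancel (a := a)
      rw [← h]
      nth_rewrite 1 [← h3]
      group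
    rw [hR.sep y hy y' hy' g (mem_centralizer_iff.2 fun _ hb => by
      rw [hb, ← mul_inv_eq_iff_eq_mul.1 h3]) h4]

theorem NC.biUnion {ι : Type*} (s : Finset ι) (Z : ι → Set G) (f : ι → ℕ) (h : ∀ i ∈ s, NC H (Z i) (f i))
    (hd : ∀ i ∈ s, ∀ j ∈ s, ∀ x ∈ Z i, ∀ g ∈ H, g * x * g⁻¹ ∈ Z j → i = j) :
    NC H {x | ∃ i ∈ s, x ∈ Z i} (∑ i ∈ s, f i) := by
  classical
  induction s using Finset.induction_on with
  | empty => exact ⟨∅, rfl, by simp, by simp, by simp⟩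
  | insert a s ha ih =>
    rw [Finset.sum_insert ha]
    refine ((h a (Finset.mem_insert_self _ _)).union (ih (fun i hi => h i (Finset.mem_insert_of_mem hi))
      fun i hi j hj => hd i (Finset.mem_insert_of_mem hi) j (Finset.mem_insert_of_mem hj)) ?_).congr fun x => by
        simp
    rintro x hx g hg ⟨i, hi, h⟩
    exact ha (hd a (Finset.mem_insert_self _ _) i (Finset.mem_insert_of_mem hi) x hx g hg h ▸ hi)

/-- one more prime -/
theorem NC.step {q m : ℕ} (hc : q.Coprime m) (h0 : NC (⊤ : Subgroup G) {y | y ^ m = 1} n) {R : Finset G}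
    (hR : Reps ⊤ {x | x ≠ 1 ∧ x ^ q = 1} R) (f : G → ℕ)
    (hf : ∀ a ∈ R, NC (centralizer {a}) {y | y ^ m = 1 ∧ y * a = a * y} (f a)) :
    NC (⊤ : Subgroup G) {g | g ^ (q * m) = 1} (n + ∑ a ∈ R, f a) := by
  obtain ⟨e, h1, h2⟩ := exists_exp hc
  have hq : ∀ a ∈ R, ∀ x, IsConj a x → x ^ q = 1 := fun a ha x hx => by
    obtain ⟨g, rfl⟩ := isConj_iff.1 hx
    rw [conj_pow, (hR.mem a ha).2]; group
  refine (h0.union (NC.biUnion R _ f (fun a ha => (hf a ha).part hc (hR.mem a ha).2) ?_) ?_).congr fun g => ?_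
  · rintro a ha b hb _ ⟨x, y, hx, hy, hxy, rfl⟩ g - ⟨x', y', hx', hy', hxy', h⟩
    have h3 : g * x * g⁻¹ = x' := by
      have := congrArg (· ^ e) h
      simp only [conj_pow] at this
      rwa [part_pow h1 h2 (hq a ha x hx) hy hxy, part_pow h1 h2 (hq b hb x' hx') hy' hxy'] at this
    obtain ⟨c, hc⟩ := isConj_iff.1 ((hx.trans (isConj_iff.2 ⟨g, h3⟩)).trans hx'.symm)
    exact hR.sep a ha b hb c (mem_top _) hc
  · rintro y hy g - ⟨a, ha, x, y', hx, hy', hxy, h⟩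
    have := congrArg (· ^ e) h
    simp only [conj_pow] at this
    rw [part_pow h1 h2 (hq a ha x hx) hy' hxy, pow_eq_of_modEq hy h2, pow_zero, mul_one, mul_inv_cancel] at this
    rw [← this, isConj_one_left] at hx
    exact (hR.mem a ha).1 hx
  · constructor
    · rintro (h | ⟨a, ha, x, y, hx, hy, hxy, rfl⟩)
      · show g ^ (q * m) = 1
        rw [mul_comm, pow_mul, h, one_pow]
      · show (x * y) ^ (q * m) = 1
        rw [Commute.mul_pow (show Commute x y from hxy.symm), pow_mul, hq a ha x hx, mul_comm q, pow_mul, hy]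
        simp
    · intro h
      obtain ⟨x, y, hx, hy, hxy, rfl⟩ := exists_parts hc h
      by_cases h3 : x = 1
      · exact Or.inl (by rw [h3, one_mul]; exact hy)
      · obtain ⟨a, ha, g, -, h4⟩ := hR.cov x ⟨h3, hx⟩
        exact Or.inr ⟨a, ha, x, y, isConj_iff.2 ⟨g, h4⟩, hy, hxy, rfl⟩

theorem NC.step' {q m r c : ℕ} (hc : q.Coprime m) (h0 : NC (⊤ : Subgroup G) {y | y ^ m = 1} n)
    (hR : NC (⊤ : Subgroup G) {x | x ≠ 1 ∧ x ^ q = 1} r)
    (hf : ∀ a : G, a ≠ 1 → a ^ q = 1 → NC (centralizer {a}) {y | y ^ m = 1 ∧ y * a = a * y} c) :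
    NC (⊤ : Subgroup G) {g | g ^ (q * m) = 1} (n + r * c) := by
  obtain ⟨R, rfl, hR⟩ := hR
  simpa using h0.step hc hR (fun _ => c) fun a ha => hf a (hR.mem a ha).1 (hR.mem a ha).2

theorem NC.step1 {q m c : ℕ} (hc : q.Coprime m) (h0 : NC (⊤ : Subgroup G) {y | y ^ m = 1} n) {a : G}
    (h1 : a ≠ 1) (ha : a ^ q = 1) (hR : ∀ x : G, x ≠ 1 → x ^ q = 1 → IsConj a x)
    (hf : NC (centralizer {a}) {y | y ^ m = 1 ∧ y * a = a * y} c) :
    NC (⊤ : Subgroup G) {g | g ^ (q * m) = 1} (n + c) := by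
  simpa using h0.step hc (R := {a}) ⟨by simpa using ⟨h1, ha⟩, fun x hx => by
    simpa using isConj_iff.1 (hR x hx.1 hx.2), by simp +contextual⟩ (fun _ => c) (by simpa using hf)

theorem NC.step2 {q m c d : ℕ} (hc : q.Coprime m) (h0 : NC (⊤ : Subgroup G) {y | y ^ m = 1} n) {a b : G}
    (h1 : a ≠ 1) (ha : a ^ q = 1) (h1' : b ≠ 1) (hb : b ^ q = 1) (hab : ¬ IsConj a b)
    (hR : ∀ x : G, x ≠ 1 → x ^ q = 1 → IsConj a x ∨ IsConj b x)
    (hf : NC (centralizer {a}) {y | y ^ m = 1 ∧ y * a = a * y} c)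
    (hg : NC (centralizer {b}) {y | y ^ m = 1 ∧ y * b = b * y} d) :
    NC (⊤ : Subgroup G) {g | g ^ (q * m) = 1} (n + (c + d)) := by
  classical
  have hne : a ≠ b := fun e => hab (e ▸ IsConj.refl a)
  have := h0.step hc (R := {a, b}) ⟨by simpa using ⟨⟨h1, ha⟩, h1', hb⟩, fun x hx => by
    simpa [isConj_iff] using hR x hx.1 hx.2, by
      simp only [Finset.mem_insert, Finset.mem_singleton]
      rintro _ (rfl | rfl) _ (rfl | rfl) g - e
      · rfl
      · exact (hab (isConj_iff.2 ⟨g, e⟩)).elim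
      · exact (hab (isConj_iff.2 ⟨g, e⟩).symm).elim
      · rfl⟩ (fun x => if x = a then c else d) (by
    simp only [Finset.mem_insert, Finset.mem_singleton]
    rintro _ (rfl | rfl)
    · simpa using hf
    · simpa [hne.symm] using hg)
  simpa [Finset.sum_pair hne, hne.symm] using this

/-! ### Sylow subgroups of prime order -/

theorem exists_reps [Finite G] (H : Subgroup G) (X : Set G) : ∃ R, Reps H X R := by
  classical
  let s : Setoid X := ⟨fun a b => ∃ h ∈ H, h * a * h⁻¹ = b, fun a => ⟨1, one_mem _, by simp⟩,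
    fun ⟨h, hh, e⟩ => ⟨h⁻¹, inv_mem hh, by rw [← e]; group⟩,
    fun ⟨h, hh, e⟩ ⟨k, hk, e'⟩ => ⟨k * h, mul_mem hk hh, by rw [← e', ← e]; group⟩⟩
  have := Fintype.ofFinite (Quotient s)
  refine ⟨Finset.univ.image fun c : Quotient s => (c.out : G), ?_, fun x hx => ?_, ?_⟩
  · intro r hr
    obtain ⟨c, -, rfl⟩ := Finset.mem_image.1 hr
    exact c.out.2
  · exact ⟨_, Finset.mem_image_of_mem _ (Finset.mem_univ (Quotient.mk s ⟨x, hx⟩)), Quotient.mk_out (s := s) ⟨x, hx⟩⟩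
  · intro r hr r' hr' h hh e
    obtain ⟨c, -, rfl⟩ := Finset.mem_image.1 hr
    obtain ⟨c', -, rfl⟩ := Finset.mem_image.1 hr'
    rw [Quotient.out_equiv_out.1 (show s c.out c'.out from ⟨h, hh, e⟩)]

theorem ncard_orbit [Finite G] (H : Subgroup G) (r : G) :
    {x | ∃ h ∈ H, h * r * h⁻¹ = x}.ncard * Nat.card (H ⊓ centralizer {r} : Subgroup G) = Nat.card H := by
  let : MulAction H G := MulAction.compHom G ((MulAut.conj : G →* MulAut G).comp H.subtype)
  have h1 : {x | ∃ h ∈ H, h * r * h⁻¹ = x} = MulAction.orbit H r := by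
    ext x
    exact ⟨fun ⟨h, hh, e⟩ => ⟨⟨h, hh⟩, e⟩, fun ⟨h, e⟩ => ⟨h, h.2, e⟩⟩
  have h2 : MulAction.stabilizer H r = (H ⊓ centralizer {r}).subgroupOf H := by
    ext h
    rw [MulAction.mem_stabilizer_iff, mem_subgroupOf, mem_inf, mem_centralizer_iff]
    show (h : G) * r * (h : G)⁻¹ = r ↔ _
    rw [mul_inv_eq_iff_eq_mul]
    simp [eq_comm]
  rw [h1, ← MulAction.index_stabilizer, ← Nat.card_congr (subgroupOfEquivOfLe inf_le_left).toEquiv, ← h2,
    index_mul_card]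

theorem Reps.card_mul [Finite G] {R : Finset G} (hR : Reps H X R) (hX : ∀ x ∈ X, ∀ h ∈ H, h * x * h⁻¹ ∈ X)
    {c : ℕ} (hc : ∀ x ∈ X, Nat.card (H ⊓ centralizer {x} : Subgroup G) * c = Nat.card H) :
    X.ncard = R.card * c := by
  classical
  have h1 : ∀ r ∈ R, ({x | ∃ h ∈ H, h * r * h⁻¹ = x}.toFinite.toFinset).card = c := fun r hr => by
    rw [← Set.ncard_eq_toFinset_card]
    have h2 := ncard_orbit H r
    rw [← hc r (hR.mem r hr), mul_comm] at h2
    exact Nat.eq_of_mul_eq_mul_left Nat.card_pos h2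
  rw [Set.ncard_eq_toFinset_card X, show X.toFinite.toFinset =
    R.biUnion fun r => {x | ∃ h ∈ H, h * r * h⁻¹ = x}.toFinite.toFinset from ?_, Finset.card_biUnion,
    Finset.sum_congr rfl h1, Finset.sum_const, smul_eq_mul]
  · intro r hr r' hr' hne
    refine Finset.disjoint_left.2 fun x hx hx' => hne ?_
    obtain ⟨h, hh, e⟩ := (Set.Finite.mem_toFinset _).1 hx
    obtain ⟨k, hk, e'⟩ := (Set.Finite.mem_toFinset _).1 hx'
    refine hR.sep r hr r' hr' (k⁻¹ * h) (mul_mem (inv_mem hk) hh) ?_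
    calc k⁻¹ * h * r * (k⁻¹ * h)⁻¹ = k⁻¹ * (h * r * h⁻¹) * k := by group
      _ = r' := by rw [e, ← e']; group
  · ext x
    simp only [Set.Finite.mem_toFinset, Finset.mem_biUnion]
    exact ⟨hR.cov x, fun ⟨r, hr, h, hh, e⟩ => e ▸ hX r (hR.mem r hr) h hh⟩

theorem zpowers_eq [Finite G] {p : ℕ} (hp : p.Prime) {x y : G} (hx : orderOf x = p) (hy : y ∈ zpowers x)
    (h1 : y ≠ 1) : zpowers y = zpowers x := by
  have := Fact.mk hp
  refine eq_of_le_of_card_ge (zpowers_le.2 hy) ?_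
  rw [Nat.card_zpowers, Nat.card_zpowers, hx, orderOf_eq_prime (p := p) _ h1]
  rw [← hx]
  exact orderOf_dvd_iff_pow_eq_one.1 (orderOf_dvd_of_mem_zpowers hy)

/-- the classes of elements of order `p` if all of them are conjugate into `⟨x⟩` -/
theorem nc_prime [Finite G] {p e r : ℕ} (hp : p.Prime) {x : G} (hx : orderOf x = p)
    (hS : ∀ y : G, y ≠ 1 → y ^ p = 1 → ∃ g, g * y * g⁻¹ ∈ zpowers x)
    (hN : Nat.card (normalizer (zpowers x : Set G)) = Nat.card (centralizer ({x} : Set G)) * e)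
    (hr : p = r * e + 1) : NC (⊤ : Subgroup G) {y | y ≠ 1 ∧ y ^ p = 1} r := by
  have he : 0 < e := Nat.pos_of_ne_zero fun h => by
    rw [h, mul_zero] at hr
    exact hp.one_lt.ne' hr
  obtain ⟨R, hR⟩ := exists_reps (normalizer (zpowers x : Set G)) ((zpowers x : Set G) \ {1})
  have h1 := hR.card_mul (c := e) (fun y hy h hh => ⟨(mem_normalizer_iff.1 hh y).1 hy.1, fun e => hy.2 (by
    simpa using e)⟩) fun y hy => by
      have h2 := zpowers_eq hp hx hy.1 hy.2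
      have h3 : centralizer ({y} : Set G) = centralizer {x} := by
        rw [← centralizer_closure, ← centralizer_closure {x}, ← zpowers_eq_closure, ← zpowers_eq_closure, h2]
      rw [hN, h3, inf_eq_right.2]
      rw [← centralizer_closure, ← zpowers_eq_closure]
      exact centralizer_le_normalizer _
  rw [Set.ncard_sdiff_singleton_of_mem (one_mem _), ← Nat.card_coe_set_eq, SetLike.coe_sort_coe, Nat.card_zpowers,
    hx, hr, Nat.add_sub_cancel] at h1
  refine NC.ctrl ⟨R, (Nat.eq_of_mul_eq_mul_right he h1).symm, hR⟩ le_top (fun y hy => ⟨hy.2, ?_⟩)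
    (fun y hy => ?_) fun y hy g _ hg => ⟨g, ?_, rfl⟩
  · rw [← hx]
    exact orderOf_dvd_iff_pow_eq_one.1 (orderOf_dvd_of_mem_zpowers hy.1)
  · obtain ⟨g, hg⟩ := hS y hy.1 hy.2
    exact ⟨_, ⟨hg, fun e => hy.1 (by simpa using e)⟩, g⁻¹, mem_top _, by group⟩
  · rw [← zpowers_eq hp hx hy.1 hy.2]
    refine mem_normalizer_fintype fun a ha => ?_
    obtain ⟨k, rfl⟩ := mem_zpowers_iff.1 ha
    rw [← conj_zpow, SetLike.mem_coe, zpowers_eq hp hx hy.1 hy.2]
    exact zpow_mem hg.1 k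

end CfsgLib.J4T.C62
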