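import Mathlib
import Cfsg.Agent.Lib.J4T.MApi
import Cfsg.Agent.Lib.M24E.Order
import Cfsg.Agent.Lib.GW.Basic

/-! # Elements of order 5 in a group of Janko-four type: the computations in `C(z)` and `N(V)` -/

set_option autoImplicit false

namespace CfsgLib.J4T

open Cfsg CfsgLib.Golay CfsgLib.M24E CfsgLib.GW Subgroup
open scoped Pointwise

theorem card_fixS_five {g : P24} (hg : g ∈ M24) (h5 : g ^ 5 = 1) (h1 : g ≠ 1) :
    (fixS g).card = 4 := by
  haveI : Fact (Nat.Prime 5) := ⟨by norm_num⟩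
  have hm := Equiv.Perm.card_compl_support_modEq (p := 5) (n := 1) (σ := g) (by simpa using h5)
  rw [card_golayPt, show g.supportᶜ = fixS g by ext p; simp [mem_fixS], Nat.ModEq] at hm
  refine by_contra fun hn => ?_
  obtain ⟨s, hs, hc⟩ := Finset.exists_subset_card_eq (show 5 ≤ (fixS g).card by omega)
  obtain ⟨r, hr, e⟩ := finset_trans (s := ofMask 31) (t := s) (hc ▸ by decide +kernel) (by decide +kernel)
  obtain ⟨q, hq, e'⟩ := exists_h48 (conj_mem hr hg) fun j hj =>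
    (conj_fix_iff r g _).2 (fun p hp => mem_fixS.1 (hs (e ▸ hp))) _
      ((pt_mem_ofMask (by omega)).2 (by interval_cases j <;> rfl))
  have := (allL_iff _ _).1 (show allL h48 (fun q => or (isId (ap q)) (not (powId (ap q) 5))) = true by
    decide +kernel) q hq
  rw [((h48_spec hq).2.1.powId_iff 5).2 (by
    rw [e', show r⁻¹ * g * r = r⁻¹ * g * r⁻¹⁻¹ by simp, conj_pow, h5]; simp), Bool.not_true,
    Bool.or_false, (h48_spec hq).2.1.isId_iff, e'] at this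
  exact h1 (eq_one_of_conj this)

/-- An element of order 5 centralising an involution of the second class. -/
theorem MM.Full.zeta {G : Type*} [Group G] {z : G} {m : MM z} (hm : m.Full) {b f : G} (h1 : b ≠ 1)
    (h2 : b * b = 1) (hb : ¬ IsConj z b) (hf : orderOf f = 5) (hc : f * b = b * f) :
    ∃ ζ, IsConj z ζ ∧ ∀ x, x * b = b * x → x * f = f * x → x * ζ = ζ * x := by
  obtain ⟨u, rfl⟩ := isConj_iff.1 ((hm.two b h1 h2).resolve_left hb)
  have key : ∀ x, x * (u * m.c (ofMask 3) * u⁻¹) = u * m.c (ofMask 3) * u⁻¹ * x →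
      u⁻¹ * x * u ∈ normalizer (m.V : Set G) := fun x hx => hm.cent_duad (ofMask 3) card_3
    (mem_centralizer_singleton_iff.2 (by
      calc _ = u⁻¹ * (x * (u * m.c (ofMask 3) * u⁻¹)) * u := by group
        _ = _ := by rw [hx]; group))
  have hF := key f hc
  have h5 : (u⁻¹ * f * u) ^ 5 = 1 := by
    rw [show u⁻¹ * f * u = u⁻¹ * f * u⁻¹⁻¹ by simp, conj_pow, ← hf, pow_orderOf_eq_one]; simp
  have h4 := card_fixS_five (m.ψ (u⁻¹ * f * u)).2 (by
    rw [← m.ψh_apply ⟨_, hF⟩, ← map_pow, show (⟨_, hF⟩ : normalizer (m.V : Set G)) ^ 5 = 1 from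
      Subtype.ext h5, map_one]) fun e' => by
    have := orderOf_dvd_of_pow_eq_one (x := u⁻¹ * f * u⁻¹⁻¹) (n := 2) (by
      rw [inv_inv, sq, m.V_sq ((m.ψ_eq_one_iff hF).1 (Subtype.ext e'))])
    rw [ord_conj, hf] at this
    omega
  refine ⟨u * m.c (fixS (m.ψ (u⁻¹ * f * u))) * u⁻¹,
    (m.isConj_tetrad h4).trans (isConj_iff.2 ⟨u, rfl⟩), fun x hx hxf => ?_⟩
  have hX := key x hx
  have := m.comm_of_fix hX (ev_four h4) (by
    rw [← fixS_conj, ← InvMemClass.coe_inv, ← coe_mul, ← coe_mul, ← m.ψ_conj hX hF]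
    congr 3
    calc _ = u⁻¹ * (x * f * x⁻¹) * u := by group
      _ = _ := by rw [hxf, mul_inv_cancel_right])
  calc _ = u * (u⁻¹ * x * u * m.c (fixS (m.ψ (u⁻¹ * f * u)))) * u⁻¹ := by group
    _ = _ := by rw [this]; group

/-- an element of order 5 of `M22` fixing 2 and 4 -/
def p5 : ℕ := 0xbc8af1cd94454e9858cb705a450a20
/-- its matrix of order 5 -/
def a5 : ℕ := 0xc3fc076081b81bf0c141c83b0080a711c001
/-- an element of order 4 normalising `p5` -/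
def p4 : ℕ := 0xba4b0606c87bab3a454b6c8e231060
/-- its matrix of order 4 -/
def a4 : ℕ := 0x98a9a4b0ac93ca085392c08a008821493001

theorem chkL_p5 : chkL p5 a5 = true := by decide +kernel
theorem chkL_p4 : chkL p4 a4 = true := by decide +kernel

theorem cent_p5 {g : P24} (hg : g ∈ DD) (hc : g * pm p5 = pm p5 * g) :
    ∃ i < 5, g = pm p5 ^ i ∨ g = pm p5 ^ i * pm (rE 26) := by
  have hB : chkB 0x1a1ed2d2c259eb79020a24dc64b221 0x645b232c29a96827a07671267bc00a = true := by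
    decide +kernel
  have h5 := pm_rp (HM.chkL_DD chkL_p5).1
  have hs := pm_rp (HM.chkL_DD (HM.chkL_rE (show 26 < 32 by norm_num))).1
  refine all_of_search (P := fun g => g * pm p5 = pm p5 * g ∧ g • ofMask 8388609 = ofMask 8388609)
    (Q := fun g => ∃ i < 5, g = pm p5 ^ i ∨ g = pm p5 ^ i * pm (rE 26)) hB
    (sound_okI (chkB_lt hB) h5 h5 fun _ _ h => h.1)
    (good := fun φ => or (not (intw φ (ap p5) (ap p5))) (or (not (setTo φ 8388609 8388609))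
      (anyL [0, 1, 2, 3, 4] fun i => or (eqF φ (itF (ap p5) i))
        (eqF φ fun x => itF (ap p5) i (ap (rE 26) x)))))
    (fun g _ hP φ hφ h => ?_) (by decide +kernel) g (DD_le hg) ⟨hc, (mem_DD'.1 hg).2⟩
  rw [(hφ.intw_iff h5 h5).2 hP.1, (hφ.setFix_iff _).2 hP.2, Bool.not_true, Bool.false_or,
    Bool.false_or, anyL_iff] at h
  obtain ⟨i, hi, h⟩ := h
  rw [Bool.or_eq_true, hφ.eqF_iff (h5.pow i), hφ.eqF_iff ((h5.pow i).mul hs)] at h
  exact ⟨i, by simp only [List.mem_cons, List.not_mem_nil, or_false] at hi; omega, h⟩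

/-- the vectors fixed by `a5` -/
def fx5 : Finset ℕ :=
  {0, 1, 8, 9, 2034, 2035, 2042, 2043, 2278, 2279, 2286, 2287, 3860, 3861, 3868, 3869}

theorem fx5_iff {v : ℕ} (hv : v < 4096) : mv a5 v = v ↔ v ∈ fx5 := by
  have := (allLT_iff _ _).1 (show allLT 4096 (fun v => eqB (Nat.beq (mv a5 v) v)
    (decide (v ∈ fx5))) = true by decide +kernel) v hv
  rwa [eqB_iff, beq_iff', decide_eq_true_iff] at this

theorem fx5_lt : ∀ v ∈ fx5, v < 4096 := by decide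

variable {G : Type*} [Group G] {z : G}

theorem HM.ncard_sz (h : HM z) (L : Finset ℕ) (hL : ∀ w ∈ L, w < 4096) :
    {x | ∃ w ∈ L, ∃ a < 2, x = h.s w * z ^ a}.ncard = L.card * 2 := by
  classical
  rw [show {x | ∃ w ∈ L, ∃ a < 2, x = h.s w * z ^ a} =
      ↑((L ×ˢ Finset.range 2).image fun p => h.s p.1 * z ^ p.2) by
    ext x; simp [eq_comm, and_assoc], Set.ncard_coe_finset, Finset.card_image_of_injOn,
    Finset.card_product, Finset.card_range]
  rintro ⟨v, a⟩ h1 ⟨w, b⟩ h2 e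
  simp only [Finset.coe_product, Set.mem_prod, Finset.mem_coe, Finset.mem_range] at h1 h2
  obtain ⟨e1, e2⟩ := h.s_inj (hL v h1.1) (hL w h2.1) e
  exact Prod.ext e1 (by omega)

theorem HM.sz_mul (h : HM z) {v w : ℕ} (hv : v < 4096) (hw : w < 4096) (a b : ℕ) :
    h.s v * z ^ a * (h.s w * z ^ b) = h.s (v ^^^ w) * z ^ ((beta v w + a + b) % 2) := by
  rw [h.zpow_mod, pow_add, pow_add, ← mul_assoc, ← mul_assoc, ← mul_assoc, ← h.s_mul v hv w hw,
    mul_assoc (h.s v), ← h.s_zpow hw, ← mul_assoc]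

/-- the elementary abelian group of order 8 of the trio -/
def HM.Z8 (h : HM z) : Subgroup G where
  carrier := {x | ∃ w ∈ ({0, 1, 8, 9} : Finset ℕ), ∃ a < 2, x = h.s w * z ^ a}
  one_mem' := ⟨0, by decide, 0, by norm_num, by simp [h.s_zero]⟩
  mul_mem' := by
    rintro _ _ ⟨v, hv, a, -, rfl⟩ ⟨w, hw, b, -, rfl⟩
    have : v < 4096 ∧ w < 4096 ∧ v ^^^ w ∈ ({0, 1, 8, 9} : Finset ℕ) := by revert v w; decide
    exact ⟨_, this.2.2, _, Nat.mod_lt _ two_pos, h.sz_mul this.1 this.2.1 a b⟩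
  inv_mem' := by
    rintro _ ⟨v, hv, a, ha, rfl⟩
    have : v < 4096 ∧ beta v v = 0 := by revert v; decide +kernel
    refine ⟨v, hv, a, ha, inv_eq_of_mul_eq_one_right ?_⟩
    rw [h.sz_mul this.1 this.1, this.2, Nat.xor_self, h.s_zero, show (0 + a + a) % 2 = 0 by omega]
    simp

theorem HM.mem_Z8 (h : HM z) {x : G} :
    x ∈ h.Z8 ↔ ∃ w ∈ ({0, 1, 8, 9} : Finset ℕ), ∃ a < 2, x = h.s w * z ^ a := Iff.rfl

theorem HM.card_Z8 (h : HM z) : Nat.card h.Z8 = 8 :=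
  (Nat.card_coe_set_eq _).trans (h.ncard_sz _ (by decide))

theorem HM.Z8_le (h : HM z) : h.Z8 ≤ h.E := fun _ ⟨w, hw, a, ha, e⟩ =>
  h.mem_E'.2 ⟨w, by clear e; revert w; decide, a, ha, e⟩

theorem HM.s_mem_Z8 (h : HM z) {w : ℕ} (hw : w ∈ ({0, 1, 8, 9} : Finset ℕ)) : h.s w ∈ h.Z8 :=
  ⟨w, hw, 0, two_pos, by simp⟩

theorem HM.z_mem_Z8 (h : HM z) : z ∈ h.Z8 := ⟨0, by decide, 1, one_lt_two, by simp [h.s_zero]⟩

theorem HM.Z8_comm (h : HM z) {x y : G} (hx : x ∈ h.Z8) (hy : y ∈ h.Z8) : x * y = y * x := by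
  obtain ⟨v, hv, a, -, rfl⟩ := hx
  obtain ⟨w, hw, b, -, rfl⟩ := hy
  have : v < 4096 ∧ w < 4096 ∧ beta v w = beta w v := by revert v w; decide +kernel
  rw [h.sz_mul this.1 this.2.1, h.sz_mul this.2.1 this.1, Nat.xor_comm, this.2.2, add_right_comm]

theorem HM.Z8_sq (h : HM z) {x : G} (hx : x ∈ h.Z8) : x * x = 1 := by
  obtain ⟨v, hv, a, -, rfl⟩ := hx
  have : v < 4096 ∧ beta v v = 0 := by revert v; decide +kernel
  rw [h.sz_mul this.1 this.1, this.2, Nat.xor_self, h.s_zero, show (0 + a + a) % 2 = 0 by omega]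
  simp

theorem HM.isConj_sz (h : HM z) {v : ℕ} (hv : v < 4096) (h0 : v ≠ 0) (a : ℕ) :
    IsConj (h.s v) (h.s v * z ^ a) := by
  rcases h.zpow_cases a with e | e <;> rw [e]
  · rw [mul_one]
  · obtain ⟨w, -, e⟩ := h.exists_conj_z hv h0
    exact isConj_iff.2 ⟨_, e⟩

theorem HM2.conj_sz (h : HM2 z) {v : ℕ} (hv : v < 4096) (h0 : v ≠ 0) (a : ℕ) :
    IsConj z (h.s v * z ^ a) ↔ ty v = 1 :=
  ⟨fun e => (h.conj_E v hv h0).1 (e.trans (h.isConj_sz hv h0 a).symm),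
    fun e => ((h.conj_E v hv h0).2 e).trans (h.isConj_sz hv h0 a)⟩

theorem HM2.Z8_conj (h : HM2 z) {x : G} (hx : x ∈ h.Z8) (h1 : x ≠ 1) : IsConj z x := by
  obtain ⟨v, hv, a, -, rfl⟩ := hx
  by_cases h0 : v = 0
  · rw [h0, h.s_zero, one_mul] at h1 ⊢
    rw [(h.zpow_cases a).resolve_left h1]
  · have : v < 4096 ∧ ty v = 1 := by clear h1; revert v; decide +kernel
    exact (h.conj_sz this.1 h0 a).2 this.2

/-- the elements of order 5, 2, 4 of `K2` used in the study of the centraliser of `f` -/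
structure F5 (h : HM2 z) (f t r : G) : Prop where
  rf : h.Rk f p5 a5
  rt : h.Rk t (rE 26) (rM 26)
  rr : h.Rk r p4 a4
  f5 : f ^ 5 = 1
  t2 : t * t = 1
  r4 : r ^ 4 = 1
  tf : t * f = f * t
  rf2 : r * f * r⁻¹ = f ^ 2

theorem HM2.exists_F5 (h : HM2 z) : ∃ f t r, F5 h f t r := by
  obtain ⟨f, hf, f5⟩ : ∃ f, h.Rk f p5 a5 ∧ f ^ 5 = 1 := by
    obtain ⟨f, hf⟩ := h.exists_rk chkL_p5
    rcases hf.pow_eq (n := 5) (by decide +kernel) with e | e
    · exact ⟨f, hf, e⟩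
    · refine ⟨f * z, hf.mul_z, ?_⟩
      rw [Commute.mul_pow hf.comm, e, ← h.zpow_mod 5, pow_one, h.zz]
  obtain ⟨t, ht⟩ := h.exists_rk (HM.chkL_rE (show 26 < 32 by norm_num))
  obtain ⟨r, hr⟩ := h.exists_rk chkL_p4
  have key : ∀ g k : G, k * z = z * k → k ^ 5 = 1 → g * f * g⁻¹ ≠ k * z := fun g k hk h5 e => by
    have : (g * f * g⁻¹) ^ 5 = 1 := by rw [conj_pow, f5]; simp
    rw [e, Commute.mul_pow hk, h5, ← h.zpow_mod 5, pow_one, one_mul] at this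
    exact h.z_ne this
  refine ⟨f, t, r, hf, ht, hr, f5, ?_, ?_, ?_, ?_⟩
  · have := ht.pow_eq (n := 2) (by decide +kernel)
    rw [pow_two] at this
    exact this.resolve_right (h.sq t ht.mem)
  · have := hr.pow_eq (n := 4) (by decide +kernel)
    exact this.resolve_right fun e => h.sq (r * r) (h.K2.mul_mem hr.mem hr.mem) (by rw [← e]; simp [pow_succ, mul_assoc])
  · refine (((hf.mul ht).congr rfl (show _ = mm (rM 26) a5 by decide +kernel)).unique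
      (ht.mul hf)).resolve_right fun e => key t f hf.comm f5 ?_
    rw [e, mul_assoc f, ht.comm]; group
  · rcases (((hf.mul hf).mul hr).congr rfl (show _ = mm a4 a5 by decide +kernel)).unique
      (hr.mul hf) with e | e
    · rw [e, mul_inv_cancel_right, pow_two]
    · refine absurd ?_ (key r (f * f) (comm_mul hf.comm hf.comm) (by
        rw [← pow_two, ← pow_mul, mul_comm, pow_mul, f5, one_pow]))
      rw [e, mul_assoc (f * f), hr.comm]; group

namespace F5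

variable {h : HM2 z} {f t r : G} (d : F5 h f t r)
include d

theorem θf_ne : h.θ f ≠ 1 := fun e => by
  have := (d.rf.rp.isId_iff).2 e
  revert this; decide +kernel

theorem ord : orderOf f = 5 :=
  haveI : Fact (Nat.Prime 5) := ⟨by norm_num⟩
  orderOf_eq_prime d.f5 fun e => d.θf_ne (e ▸ h.θ_one)

theorem t_out : h.θ t (pt 0) ≠ pt 0 := fun e => by
  have := d.rt.inner_iff.1 e
  revert this; decide +kernel

theorem f_in : h.θ f (pt 0) = pt 0 := d.rf.inner_iff.2 (by decide +kernel)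

theorem t_inv : t⁻¹ = t := inv_eq_of_mul_eq_one_right d.t2

theorem comm_s {v : ℕ} (hv : v < 4096) (a : ℕ) :
    h.s v * z ^ a * f = f * (h.s v * z ^ a) ↔ v ∈ fx5 := by
  have e : f * (h.s v * z ^ a) * f⁻¹ = h.s (mv a5 v) * z ^ a := by
    rw [← d.rf.α_eq hv, ← h.α_in f d.rf.mem d.f_in v hv, ← conj_mul, conj_zpow d.rf.comm a]
  rw [← fx5_iff hv, eq_comm, ← mul_inv_eq_iff_eq_mul, e]
  exact ⟨fun e => (h.s_inj (mv_lt _ _) hv e).1, fun e => by rw [e]⟩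

theorem rho_f : h.ρ * f = f * h.ρ := (h.conj_rho_in d.rf.mem d.f_in).symm

theorem t_s {v : ℕ} (hv : v < 4096) : t * h.s v * t⁻¹ = h.s (mv (rM 26) v) * z ^ qf v := by
  rw [h.α_out t d.rt.mem d.t_out v hv, d.rt.α_eq hv]

theorem θ_cases {y : G} (hz : y * z = z * y) (hf : y * f = f * y) :
    ∃ i < 5, h.θ y = h.θ f ^ i ∨ h.θ y = h.θ f ^ i * h.θ t := by
  rw [d.rf.θ_eq, d.rt.θ_eq]
  refine cent_p5 (h.θ_mem y hz) ?_
  rw [← d.rf.θ_eq, ← h.θ_mul y f hz d.rf.comm, ← h.θ_mul f y d.rf.comm hz, hf]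

theorem θ_inv_cases {y : G} (hz : y * z = z * y) (hf : y * f = f * y) (h2 : y * y = 1) :
    h.θ y = 1 ∨ h.θ y = h.θ t := by
  have sq5 : ∀ {x : G}, x * z = z * x → x * x = 1 → h.θ x ^ 5 = h.θ x := fun {x} hx e => by
    rw [← h.θ_pow hx, show x ^ 5 = x * x * (x * x) * x by simp [pow_succ, mul_assoc], e]; simp
  have e5 : ∀ i : ℕ, (h.θ f ^ i) ^ 5 = 1 := fun i => by
    rw [← pow_mul, mul_comm, pow_mul, ← h.θ_pow d.rf.comm, d.f5, h.θ_one, one_pow]
  have hc : Commute (h.θ f) (h.θ t) := by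
    rw [Commute, SemiconjBy, ← h.θ_mul _ _ d.rf.comm d.rt.comm, ← d.tf, h.θ_mul _ _ d.rt.comm d.rf.comm]
  obtain ⟨i, -, e | e⟩ := d.θ_cases hz hf
  · exact Or.inl (by rw [← sq5 hz h2, e, e5])
  · exact Or.inr (by rw [← sq5 hz h2, e, (hc.pow_left i).mul_pow, e5, one_mul, sq5 d.rt.comm d.t2])

theorem t_conj_tz : IsConj t (z * t) := isConj_iff.2 ⟨h.s 2278, by
  rw [h.s_conj_out d.rt.mem d.t_out (by norm_num), d.rt.α_eq (by norm_num),
    show 2278 ^^^ mv (rM 26) 2278 = 0 by decide +kernel,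
    show beta 2278 (mv (rM 26) 2278) = 1 by decide +kernel, h.s_zero, pow_one, one_mul]⟩

theorem st_sq {v : ℕ} (hv : v < 4096) (a : ℕ) : ∃ b, h.s v * z ^ a * t * (h.s v * z ^ a * t) =
    h.s (v ^^^ mv (rM 26) v) * z ^ b := ⟨_, by
  rw [show h.s v * z ^ a * t * (h.s v * z ^ a * t) =
      h.s v * z ^ a * (t * h.s v * t⁻¹ * (t * z ^ a * t⁻¹)) * (t * t) by group, d.t2, mul_one,
    d.t_s hv, conj_zpow d.rt.comm, mul_assoc (h.s (mv _ _)), ← pow_add, h.sz_mul hv (mv_lt _ _)]⟩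

/-- all involutions of `C(z)` over `θ t` are conjugate -/
theorem conj_t {y : G} (hz : y * z = z * y) (hθ : h.θ y = h.θ t) (h2 : y * y = 1) : IsConj t y := by
  obtain ⟨e, he, i, -, hy⟩ := h.θ_eq_one (comm_mul hz (comm_inv d.rt.comm)) (by
    rw [h.θ_mul _ _ hz (comm_inv d.rt.comm), h.θ_inv d.rt.comm, hθ, mul_inv_cancel])
  have hρ := comm_pow h.rho_z i
  have h3 : h.ρ ^ i * y * (h.ρ ^ i)⁻¹ = h.ρ ^ i * e * (h.ρ ^ i)⁻¹ * t := by
    have e1 : t * h.ρ * t⁻¹ = h.ρ⁻¹ := by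
      rw [h.conj_rho_out d.rt.mem d.t_out, h.rho_inv, mul_inv_cancel_right]
    have e2 : t * (h.ρ ^ i)⁻¹ * t⁻¹ = h.ρ ^ i := by
      rw [← inv_pow, ← conj_pow, show t * h.ρ⁻¹ * t⁻¹ = (t * h.ρ * t⁻¹)⁻¹ by group, e1, inv_inv]
    have e3 : (h.ρ ^ i) ^ 3 = 1 := by rw [← pow_mul, mul_comm, pow_mul, h.rho_three, one_pow]
    rw [mul_inv_eq_iff_eq_mul.1 hy]
    calc _ = h.ρ ^ i * e * h.ρ ^ i * (t * (h.ρ ^ i)⁻¹ * t⁻¹) * t := by group
      _ = h.ρ ^ i * e * (h.ρ ^ i)⁻¹ * (h.ρ ^ i) ^ 3 * t := by rw [e2]; group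
      _ = _ := by rw [e3, mul_one]
  obtain ⟨v, hv, a, -, hva⟩ := h.mem_E'.1 (h.conj_mem_E hρ he)
  refine IsConj.trans ?_ (isConj_iff.2 ⟨_, h3⟩).symm
  obtain ⟨b, hb⟩ := d.st_sq hv a
  rw [← hva, ← h3, conj_mul, h2, mul_one, mul_inv_cancel] at hb
  have h0 := (h.s_inj (v := 0) (a := 0) (by norm_num) (xor_lt' hv (mv_lt _ _))
    (by rw [← hb, h.s_zero, pow_zero, mul_one])).1
  have hB := (allLT_iff _ _).1 (show allLT 4096 (fun v => or (not (Nat.beq 0 (v ^^^ mv (rM 26) v)))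
    (frc (mv 0x2042d0000084000000016000002000000006 v) fun u => Nat.beq (u ^^^ mv (rM 26) u) v)) = true
    by decide +kernel) v hv
  rw [beq_iff'.2 h0, Bool.not_true, Bool.false_or, frc_eq, beq_iff'] at hB
  have hc := h.s_conj_out d.rt.mem d.t_out (mv_lt 0x2042d0000084000000016000002000000006 v)
  rw [d.rt.α_eq (mv_lt _ _), hB] at hc
  have huz := h.s_z (mv_lt 0x2042d0000084000000016000002000000006 v)
  generalize beta _ _ = c at hc
  generalize h.s (mv 0x2042d0000084000000016000002000000006 v) = u at hc huz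
  have : IsConj t (z ^ (a + c) * t) := by
    rcases h.zpow_cases (a + c) with e | e <;> rw [e]
    exacts [by rw [one_mul], d.t_conj_tz]
  refine this.trans (isConj_iff.2 ⟨u, ?_⟩)
  rw [hva, ← conj_mul, hc, conj_zpow huz, ← mul_assoc, ← mul_assoc, ← h.s_zpow hv, pow_add,
    mul_assoc (h.s v), mul_assoc (z ^ a), h.zpow_self, mul_one]

theorem comm_l {x : ℕ} (hx : x < 16) (e : h.θ t * h.θ (h.l x) = h.θ (h.l x) * h.θ t) :
    t * h.l x * t⁻¹ = h.l x := by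
  by_cases h0 : x = 0
  · rw [h0, h.l_zero, mul_one, mul_inv_cancel]
  refine h.lift_unique (h.l_mem x hx) (h.K2.mul_mem (h.K2.mul_mem d.rt.mem (h.l_mem x hx))
    (h.K2.inv_mem d.rt.mem)) (by rw [h.θ_conj d.rt.comm (h.l_z hx), e, mul_inv_cancel_right])
    (h.l_inner hx) (fun e' => h0 (uE_inj hx (by norm_num) ?_)) (h.l_sq hx)
    (by rw [conj_mul, h.l_sq hx]; simp) (h.l_conj x hx h0)
    ((h.l_conj x hx h0).trans (isConj_iff.2 ⟨t, rfl⟩))
  rw [(h.l_θ x hx).app (by norm_num), e', (h.l_θ 0 (by norm_num)).app (by norm_num), h.l_zero, h.θ_one]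

theorem mem_Z8_of {y : G} (hy : y ∈ h.E) (hf : y * f = f * y) (hA : IsConj z y) : y ∈ h.Z8 := by
  obtain ⟨v, hv, a, ha, rfl⟩ := h.mem_E'.1 hy
  refine ⟨v, ?_, a, ha, rfl⟩
  by_cases h0 : v = 0
  · rw [h0]; decide
  have h1 := (h.conj_sz hv h0 a).1 hA
  exact (by decide +kernel : ∀ v ∈ fx5, ty v = 1 → v ∈ ({0, 1, 8, 9} : Finset ℕ)) v
    ((d.comm_s hv a).1 hf) h1

theorem Z8_f {y : G} (hy : y ∈ h.Z8) : y * f = f * y := by
  obtain ⟨v, hv, a, -, rfl⟩ := hy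
  have : v < 4096 ∧ v ∈ fx5 := by revert v; decide
  exact (d.comm_s this.1 a).2 this.2

theorem cent_Z8 {y : G} (hf : y * f = f * y) (hZ : ∀ e ∈ h.Z8, y * e = e * y) :
    ∃ e ∈ h.Z8, ∃ i : ℕ, y = e * f ^ i := by
  have hz := hZ z h.z_mem_Z8
  have fi : ∀ i : ℕ, f ^ i * z = z * f ^ i := comm_pow d.rf.comm
  obtain ⟨i, -, hi⟩ := d.θ_cases hz hf
  obtain ⟨u, hu⟩ : ∃ u, u = y * (f ^ i)⁻¹ := ⟨_, rfl⟩
  have uz : u * z = z * u := hu ▸ comm_mul hz (comm_inv (fi i))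
  have uZ : ∀ e ∈ h.Z8, u * e = e * u := fun e he =>
    hu ▸ comm_mul (hZ e he) (comm_inv (comm_pow (d.Z8_f he).symm i))
  have uf : u * f = f * u := hu ▸ comm_mul hf (comm_inv (comm_pow rfl i))
  have uα : ∀ w ∈ ({0, 1, 8, 9} : Finset ℕ), h.α u w = w := fun w hw => by
    have : w < 4096 := by revert w; decide
    exact h.α_eq (a := 0) uz this this (by rw [uZ _ (h.s_mem_Z8 hw)]; simp)
  have uθ : h.θ u = h.θ y * (h.θ f ^ i)⁻¹ := by
    rw [hu, h.θ_mul _ _ hz (comm_inv (fi i)), h.θ_inv (fi i), h.θ_pow d.rf.comm]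
  refine ⟨u, ?_, i, by rw [hu, inv_mul_cancel_right]⟩
  rcases hi with e | e
  · obtain ⟨v, hv, a, ha, e'⟩ := h.mem_E'.1 (h.mem_E_of_fix uz (by rw [uθ, e, mul_inv_cancel])
      (by norm_num) one_ne_zero (uα 1 (by decide)))
    have key : ∀ w ∈ ({0, 1, 8, 9} : Finset ℕ), bf v w = 0 := fun w hw => by
      have : w < 4096 := by revert w; decide
      refine (h.s_comm_iff hv this).1 (mul_right_cancel (b := z ^ a) ?_)
      rw [mul_assoc, h.s_zpow this, ← mul_assoc, ← e', uZ _ (h.s_mem_Z8 hw), e', mul_assoc]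
    exact ⟨v, (by decide +kernel : ∀ v ∈ fx5, bf v 1 = 0 → bf v 8 = 0 → v ∈ ({0, 1, 8, 9} : Finset ℕ))
      v ((d.comm_s hv a).1 (e' ▸ uf)) (key 1 (by decide)) (key 8 (by decide)), a, ha, e'⟩
  · exfalso
    have hc : h.θ f ^ i * h.θ t = h.θ t * h.θ f ^ i := by
      rw [← h.θ_pow d.rf.comm, ← h.θ_mul _ _ (fi i) d.rt.comm, ← h.θ_mul _ _ d.rt.comm (fi i),
        comm_pow d.tf.symm]
    have utz := comm_mul uz d.rt.comm
    have hE := h.mem_E_of_fix utz (by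
      rw [h.θ_mul _ _ uz d.rt.comm, uθ, e, hc, mul_inv_cancel_right, ← h.θ_mul _ _ d.rt.comm d.rt.comm,
        d.t2, h.θ_one]) (show 1 < 4096 by norm_num) one_ne_zero (by
      rw [h.α_mul uz d.rt.comm (by norm_num), d.rt.α_eq (by norm_num),
        show mv (rM 26) 1 = 1 by decide +kernel, uα 1 (by decide)])
    have := h.α_E hE (show 8 < 4096 by norm_num)
    rw [h.α_mul uz d.rt.comm (by norm_num), d.rt.α_eq (by norm_num),
      show mv (rM 26) 8 = 9 by decide +kernel, uα 9 (by decide)] at this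
    omega

/-- the coset of `Z8` consisting of elements of order 8 -/
theorem ord8 {e : G} (he : e ∈ h.Z8) : (e * (h.s 2034 * t)) ^ 4 = z := by
  obtain ⟨w, hw, a, -, rfl⟩ := he
  have hw' : w < 4096 ∧ qf (w ^^^ 2034 ^^^ mv (rM 26) (w ^^^ 2034)) = 1 := by revert w; decide +kernel
  have hv := xor_lt' hw'.1 (show 2034 < 4096 by norm_num)
  obtain ⟨b, hb⟩ := d.st_sq hv ((beta w 2034 + a + 0) % 2)
  have hu := xor_lt' hv (mv_lt (rM 26) (w ^^^ 2034))
  rw [← h.sz_mul hw'.1 (by norm_num), pow_zero, mul_one, mul_assoc _ _ t] at hb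
  rw [show 4 = 2 * 2 from rfl, pow_mul, pow_two, pow_two, hb, mul_assoc, ← mul_assoc (z ^ b),
    ← h.s_zpow hu, mul_assoc, h.zpow_self, mul_one, h.s_sq hu, hw'.2, pow_one]

theorem x8_f : h.s 2034 * t * f = f * (h.s 2034 * t) :=
  comm_mul (by simpa using (d.comm_s (show 2034 < 4096 by norm_num) 0).2 (by decide)) d.tf

theorem card_Ef : Nat.card (h.E ⊓ Hc f : Subgroup G) = 32 := by
  rw [← show fx5.card * 2 = 32 by decide, ← h.ncard_sz fx5 fx5_lt, ← Nat.card_coe_set_eq]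
  refine Nat.card_congr (Equiv.subtypeEquivRight fun x => ⟨fun ⟨h1, h2⟩ => ?_, ?_⟩)
  · obtain ⟨v, hv, a, ha, rfl⟩ := h.mem_E'.1 h1
    exact ⟨v, (d.comm_s hv a).1 (mem_Hc.1 h2), a, ha, rfl⟩
  · rintro ⟨v, hv, a, ha, rfl⟩
    exact ⟨h.mem_E'.2 ⟨v, fx5_lt v hv, a, ha, rfl⟩, mem_Hc.2 ((d.comm_s (fx5_lt v hv) a).2 hv)⟩

end F5

end CfsgLib.J4T
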