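import Mathlib
import Cfsg.Agent.Lib.J4T.MApi
import Cfsg.Agent.Lib.BG.AmbConj
import Cfsg.Prelude.Def_Spor_Mathieu

/-!
# The normaliser of an elementary abelian subgroup of order `2 ^ 11`
-/

set_option autoImplicit false

namespace CfsgLib.J4T

open Cfsg CfsgLib.Golay CfsgLib.M24E Subgroup CfsgLib.BG

theorem JM.Good.s5567 {G : Type*} [Group G] {z : G} {j : JM z} (hj : j.Good) (V : Subgroup G)
    (hV : IsElementaryAbelian 2 V) (hcard : Nat.card V = 2 ^ 11) :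
    centralizer (V : Set G) ≤ V ∧ ∃ K : Subgroup G, K ≤ normalizer (V : Set G) ∧ K ⊓ V = ⊥ ∧
      K ⊔ V = normalizer (V : Set G) ∧ Spor.IsoM24 K := by
  obtain ⟨g, rfl⟩ := hj.full.uniq V hV hcard
  rw [← cj_def]
  have h1 : j.κ.range ≤ 𝒩(j.V) := by
    rintro _ ⟨a, rfl⟩
    exact j.toMM.κ_mem_M a
  refine ⟨?_, cj g j.κ.range, ?_, ?_, ?_,
    ⟨(cjEquiv g _).symm.trans (MonoidHom.ofInjective j.toMM.κ_inj).symm⟩⟩
  · rw [← cj_cent, cj_le_cj, hj.V_eq]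
    exact hj.wc.cent
  · rwa [← cj_norm, cj_le_cj]
  · rw [← cj_inf, ← cj_bot g]
    congr 1
    rw [eq_bot_iff]
    rintro _ ⟨⟨a, rfl⟩, h2⟩
    have := (j.toMM.ψ_eq_one_iff (j.toMM.κ_mem_M a)).2 h2
    rw [j.toMM.ψ_κ] at this
    rw [this, map_one]
    exact one_mem _
  · rw [← cj_sup, ← cj_norm]
    congr 1
    refine le_antisymm (sup_le h1 le_normalizer) fun x hx => ?_
    obtain ⟨a, ha, b, rfl⟩ := (j.mem_M x).1 hx
    exact mul_mem (mem_sup_right (j.toMM.c_mem ha)) (mem_sup_left ⟨b, rfl⟩)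

end CfsgLib.J4T
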