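import Mathlib
import Cfsg.Agent.Lib.J4T.Big
import Cfsg.Agent.Lib.PSL2Rec.Moebius

/-!
# Groups of Janko-four type contain `PGL2(23)`
-/

set_option autoImplicit false
set_option Elab.async false

namespace CfsgLib.J4T.K

open Cfsg CfsgLib.Golay CfsgLib.M24E CfsgLib.LargeExtra Subgroup Matrix
open scoped Pointwise OnePoint

local instance fact23 : Fact (Nat.Prime 23) := ⟨by norm_num⟩

/-- `x ↦ x + 1` -/
def qa : ℕ := 0xb82d5a4e5183dcd62d4941cc520c41
/-- `x ↦ -x` -/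
def qd : ℕ := 0xb8443214c74254b635cf84653a56c0

theorem isM_qa : isM qa = true := by decide +kernel

/-- `x ↦ x + 1` -/
noncomputable def a0 : M24 := ⟨pm qa, pm_mem isM_qa⟩

theorem rp_d : Rp (ap qd) (pm qd) := by
  obtain ⟨g, hg⟩ := exists_perm (φ := ap qd) (by decide +kernel)
  rw [hg.pm_eq]; exact hg

/-- the action on the projective line -/
noncomputable def act : GL (Fin 2) (ZMod 23) →* P24 := MulAction.toPermHom (GL (Fin 2) (ZMod 23)) (OnePoint (ZMod 23))

theorem act_eq {q : ℕ} (hq : Rp (ap q) (pm q)) (γ : GL (Fin 2) (ZMod 23))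
    (h1 : pt (ap q 23) = if γ 1 0 = 0 then none else some (γ 0 0 / γ 1 0))
    (h2 : ∀ x : ZMod 23, pt (ap q x.val) =
      if γ 1 0 * x + γ 1 1 = 0 then none else some ((γ 0 0 * x + γ 0 1) / (γ 1 0 * x + γ 1 1))) : act γ = pm q := by
  refine Equiv.ext fun p => ?_
  rw [hq.apply_eq]
  cases p with
  | none => exact (OnePoint.smul_infty_eq_ite γ).trans h1.symm
  | some x => exact OnePoint.smul_some_eq_ite.trans (h2 x).symm

/-- matrices -/
def mat (a b c d : ZMod 23) (h : a * d - b * c ≠ 0) : GL (Fin 2) (ZMod 23) :=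
  GeneralLinearGroup.mkOfDetNeZero !![a, b; c, d] (by rw [det_fin_two_of]; exact h)

theorem act_a : act (mat 1 1 0 1 (by decide)) = pm qa :=
  act_eq (pm_rp isM_qa) _ (by decide +kernel) (by decide +kernel)

theorem act_u : act (mat 2 0 0 1 (by decide)) = pm qu := act_eq rp_u _ (by decide +kernel) (by decide +kernel)

theorem act_b : act (mat 0 (-1) 1 0 (by decide)) = pm qj :=
  act_eq (pm_rp isM_qj) _ (by decide +kernel) (by decide +kernel)

theorem act_d : act (mat (-1) 0 0 1 (by decide)) = pm qd := act_eq rp_d _ (by decide +kernel) (by decide +kernel)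

theorem ker_act : act.ker = center _ := by
  ext γ
  rw [← PSL2Rec.gl_smul_eq_of_center, MonoidHom.mem_ker, Equiv.ext_iff]
  rfl

theorem gl_gen {T : Subgroup (GL (Fin 2) (ZMod 23))} (hZ : center _ ≤ T) (ha : mat 1 1 0 1 (by decide) ∈ T)
    (hu : mat 2 0 0 1 (by decide) ∈ T) (hb : mat 0 (-1) 1 0 (by decide) ∈ T) (hd : mat (-1) 0 0 1 (by decide) ∈ T)
    (γ : GL (Fin 2) (ZMod 23)) : γ ∈ T := by
  have ht : ∀ x : ZMod 23, GeneralLinearGroup.upperRightHom x ∈ T := fun x => by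
    rw [← ZMod.natCast_zmod_val x, ← nsmul_one, AddChar.map_nsmul_eq_pow,
      show GeneralLinearGroup.upperRightHom (1 : ZMod 23) = mat 1 1 0 1 (by decide) from Units.ext rfl]
    exact pow_mem ha _
  have hh : ∀ y : ZMod 23, y ≠ 0 → ∃ g ∈ T, g.val = !![y, 0; 0, 1] := fun y hy => by
    have h1 : ∀ y : ZMod 23, y ≠ 0 → ∃ i < 22, y = (-2) ^ i := by decide +kernel
    obtain ⟨i, -, rfl⟩ := h1 y hy
    refine ⟨_, pow_mem (mul_mem hd hu) i, ?_⟩
    clear hy
    induction i with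
    | zero => exact one_fin_two
    | succ i ih =>
      rw [pow_succ, Units.val_mul, ih]
      show _ * (!![-1, 0; 0, 1] * !![2, 0; 0, 1]) = _
      simp [pow_succ]
  have key : ∀ γ : GL (Fin 2) (ZMod 23), γ 1 0 = 0 → γ ∈ T := fun γ h => by
    have h1 := γ.det_ne_zero
    rw [det_fin_two, h, mul_zero, sub_zero] at h1
    have h2 := left_ne_zero_of_mul h1
    have h3 := right_ne_zero_of_mul h1
    obtain ⟨g, hg, e⟩ := hh (γ 1 1 / γ 0 0) (div_ne_zero h3 h2)
    refine (T.mul_mem_cancel_left (mul_mem hg (ht (-(γ 0 1 / γ 1 1))))).1 (hZ ?_)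
    rw [GeneralLinearGroup.mem_center_iff_val_mem_range_scalar]
    refine ⟨γ 1 1, ?_⟩
    rw [Units.val_mul, Units.val_mul, e]
    ext i j
    fin_cases i <;> fin_cases j <;> simp [mul_apply, h] <;> field_simp <;> ring
  by_cases h : γ 1 0 = 0
  · exact key γ h
  refine (T.mul_mem_cancel_left (mul_mem hb (ht (-(γ 0 0 / γ 1 0))))).1 (key _ ?_)
  rw [Units.val_mul, Units.val_mul]
  simp [mat, mul_apply, h]

theorem iso_pgl {Γ0 : Subgroup P24}
    (h : ∀ γ, γ ∈ Γ0 ↔ ∃ l ∈ closure ({a0, u0, b0} : Set M24), γ = l ∨ γ = l * pm qd) :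
    Nonempty (Γ0 ≃* GL (Fin 2) (ZMod 23) ⧸ center (GL (Fin 2) (ZMod 23))) := by
  have e : Γ0 = act.range := by
    apply le_antisymm
    · intro γ hγ
      obtain ⟨l, hl, e⟩ := (h γ).1 hγ
      have h1 : closure ({a0, u0, b0} : Set M24) ≤ act.range.subgroupOf M24 := (closure_le _).2 (by
        rintro _ (rfl | rfl | rfl)
        exacts [⟨_, act_a⟩, ⟨_, act_u⟩, ⟨_, act_b⟩])
      rcases e with rfl | rfl
      exacts [h1 hl, mul_mem (h1 hl) ⟨_, act_d⟩]
    · rintro _ ⟨γ, rfl⟩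
      have k : ∀ s ∈ ({a0, u0, b0} : Set M24), (s : P24) ∈ Γ0 := fun s hs =>
        (h _).2 ⟨s, subset_closure hs, Or.inl rfl⟩
      refine gl_gen (T := Γ0.comap act) (ker_act ▸ Γ0.ker_le_comap act) ?_ ?_ ?_ ?_ γ <;> rw [mem_comap]
      · exact act_a ▸ k a0 (by simp)
      · exact act_u ▸ k u0 (by simp)
      · exact act_b ▸ k b0 (by simp)
      · exact act_d ▸ (h _).2 ⟨1, one_mem _, Or.inr (one_mul _).symm⟩
  exact ⟨(MulEquiv.subgroupCongr e).trans ((QuotientGroup.quotientKerEquivRange act).symm.trans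
    (QuotientGroup.quotientMulEquivOfEq ker_act))⟩

theorem d_not : pm qd ∉ M24 := fun h => by
  obtain ⟨i, hi, e⟩ := cent_qu h ((rp_d.intw_iff rp_u rp_u).1 (by decide +kernel))
  have : ∀ i < 11, eqF (ap qd) (itF (ap qu) i) = false := by decide +kernel
  exact absurd (((rp_d.eqF_iff (rp_u.pow i)).2 e).symm.trans (this i hi)) (by simp)

variable {G : Type*} [Group G] [Finite G] {z : G}

/-- an involution inverting `κ a0` and centralising `uu` -/
theorem exists_invol {j : JM z} (hj : j.Good) (hl : Loc j) (hc : Nat.card G = 86775571046077562880) :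
    ∃ I : G, I * I = 1 ∧ I * j.κ a0 * I⁻¹ = (j.κ a0)⁻¹ ∧ I * uu j.toMM = uu j.toMM * I := by
  have oa : orderOf (j.κ a0) = 23 := by
    rw [orderOf_injective j.κ j.toMM.κ_inj, 
      ← orderOf_pm (p := 23) (by norm_num) isM_qa (by decide +kernel) (by decide +kernel)]
    exact (orderOf_coe a0).symm
  have ua : uu j.toMM * j.κ a0 * (uu j.toMM)⁻¹ = j.κ a0 ^ 2 := by
    rw [mul_inv_eq_iff_eq_mul, uu, ← map_pow, ← map_mul, ← map_mul]
    exact congrArg _ (Subtype.ext ((rp_u.intw_iff (pm_rp isM_qa) ((pm_rp isM_qa).pow 2)).1 (by decide +kernel)))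
  generalize j.κ a0 = a at oa ua
  generalize uu j.toMM = u at ua
  obtain ⟨h1, r, h2, h3⟩ := big hj hl hc (by decide) oa
  have h4 : zpowers a = centralizer ({a} : Set G) :=
    eq_of_le_of_card_ge (zpowers_le.2 (mem_cent.2 rfl)) (by rw [h1, Nat.card_zpowers, oa])
  obtain ⟨J, hJ, oJ⟩ := exists_ord Nat.prime_two (S := normalizer (zpowers a : Set G)) (by
    rw [h2, show r = 22 by simpa using h3]; norm_num)
  have J2 := Isol.mul_self_of_orderOf_two oJ
  obtain ⟨i, hi, e⟩ := exists_pow_of_mem oa ((mem_normalizer_iff.1 hJ a).1 (mem_zpowers a))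
  have h5 := conj_pow_pow e 2
  rw [pow_two J, J2, one_mul, inv_one, mul_one] at h5
  have h6 := pow_eq_pow_iff_modEq.1 ((pow_one a).trans h5)
  rw [oa] at h6
  have h7 : ∀ i < 23, 1 ≡ i ^ 2 [MOD 23] → i = 1 ∨ i = 22 := by decide
  rcases h7 i hi h6 with rfl | rfl
  · have := orderOf_dvd_natCard _ (mem_cent.2 (comm_of_conj_eq (e.trans (pow_one a))))
    rw [oJ, h1] at this
    norm_num at this
  have Ja : J * a * J⁻¹ = a⁻¹ := by
    rw [e, eq_inv_iff_mul_eq_one, ← pow_succ]; exact orderOf_dvd_iff_pow_eq_one.1 oa.dvd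
  obtain ⟨k, hk⟩ : J * u * J⁻¹ * u⁻¹ ∈ zpowers a := by
    rw [h4, mem_cent]
    have hu := SmallSimple.mem_normalizer_zpowers (ua ▸ npow_mem_zpowers a 2)
    exact (comm_of_cyc ((mem_normalizer_iff.1 (inv_mem hJ) a).1 (mem_zpowers a))
      ((mem_normalizer_iff.1 (inv_mem hu) a).1 (mem_zpowers a)) (by group)).symm
  have Jk : J * a ^ k * J⁻¹ = (a ^ k)⁻¹ := by rw [← _root_.conj_zpow, Ja, _root_.inv_zpow]
  have uk : u * a ^ k * u⁻¹ = a ^ k * a ^ k := by rw [← _root_.conj_zpow, ua, pow_two, (Commute.refl a).mul_zpow]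
  simp only at hk
  refine ⟨a ^ k * J, ?_, ?_, comm_of_conj_eq ?_⟩
  · calc _ = a ^ k * (J * a ^ k * J⁻¹) * (J * J) := by group
      _ = 1 := by rw [Jk, J2]; group
  · calc _ = a ^ k * (J * a * J⁻¹) * (a ^ k)⁻¹ := by group
      _ = _ := by rw [Ja]; group
  · calc _ = a ^ k * (J * u * J⁻¹ * u⁻¹) * (u * a ^ k * u⁻¹)⁻¹ * u := by group
      _ = _ := by rw [← hk, uk]; group

/-- an involution centralising `uu` centralises `κ b0` or `tt * κ b0` -/
theorem comm_b0 {j : JM z} (hj : j.Good) (hl : Loc j) (hc : Nat.card G = 86775571046077562880) {I : G}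
    (h2 : I * I = 1) (h1 : I ≠ 1) (hu : I * uu j.toMM = uu j.toMM * I) :
    I * j.κ b0 = j.κ b0 * I ∨ I * (tt j.toMM * j.κ b0) = tt j.toMM * j.κ b0 * I := by
  obtain ⟨O, ic, cO, cC⟩ := exists_core hj hl hc
  have bt := κ_tt j.toMM (g := b0) b0_D
  have bu := b0_uu j.toMM
  have b2 := b0_sq j.toMM
  have t2 := tt_sq j.toMM
  have ot := ord_tt j.toMM
  have ou := ord_uu j.toMM
  have ut := uu_tt j.toMM
  generalize j.κ b0 = b at *
  generalize uu j.toMM = u at *
  generalize tt j.toMM = t at *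
  have : Fact (Nat.Prime 11) := ⟨by norm_num⟩
  have nz : ∀ x, orderOf x = 2 → x ∉ O := fun x hx h1 => by
    have := ic.odd.of_dvd_nat (orderOf_dvd_natCard O h1)
    rw [hx] at this
    exact absurd this (by decide)
  have wO := (ic.mul_mem_iff (by rw [cC, cO]; norm_num) hu ut.symm).2
    (iff_of_false (nz _ (Isol.orderOf_eq_two_iff.2 ⟨h2, h1⟩)) (nz _ ot))
  have ab : ∀ x ∈ O, ∀ y ∈ O, x * y = y * x := fun x hx y hy =>
    congrArg Subtype.val ((IsPGroup.isMulCommutative_of_card_eq_prime_sq cO).is_comm.comm ⟨x, hx⟩ ⟨y, hy⟩)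
  let K : Subgroup G :=
    { carrier := {x | x ∈ O ∧ t * x * t⁻¹ = x⁻¹}
      one_mem' := ⟨one_mem _, by simp⟩
      mul_mem' := fun {x y} hx hy => ⟨mul_mem hx.1 hy.1, by
        rw [← conj_mul, hx.2, hy.2, ab x hx.1 y hy.1, _root_.mul_inv_rev]⟩
      inv_mem' := fun {x} hx => ⟨inv_mem hx.1, by rw [← conj_inv, hx.2]⟩ }
  have ti : t⁻¹ = t := inv_eq_of_mul_eq_one_right t2
  have wK : I * t ∈ K := ⟨wO, by
    rw [_root_.mul_inv_rev, ti, inv_eq_of_mul_eq_one_right h2, mul_assoc, mul_assoc, t2, mul_one]⟩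
  obtain ⟨w, rfl⟩ : ∃ w, I = w * t := ⟨I * t, by rw [mul_assoc, t2, mul_one]⟩
  rw [mul_assoc, t2, mul_one] at wK
  have vK : b * w * b⁻¹ ∈ K := ⟨ic.norm b (bu ▸ npow_mem_zpowers u 10) w wK.1, by
    calc t * (b * w * b⁻¹) * t⁻¹ = (t * b) * w * (t * b)⁻¹ := by group
      _ = b * (t * w * t⁻¹) * b⁻¹ := by rw [← bt]; group
      _ = _ := by rw [wK.2]; group⟩
  by_cases hp : w * (b * w * b⁻¹) = 1
  · right
    refine comm_mul ?_ (comm_mul rfl bt).symm
    apply Eq.symm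
    apply comm_of_conj_eq
    calc t * b * w * (t * b)⁻¹ = t * (b * w * b⁻¹) * t⁻¹ := by group
      _ = w := by rw [vK.2, inv_eq_of_mul_eq_one_left hp]
  · left
    have cK : Nat.card K = 11 := by
      obtain ⟨i, hi, e⟩ := (Nat.dvd_prime_pow (by norm_num)).1 (cO ▸ card_dvd_of_le (show K ≤ O from fun _ h => h.1))
      interval_cases i
      · exact absurd (mem_bot.1 (card_eq_one.1 e ▸ mul_mem wK vK)) hp
      · exact e
      · have h5 := eq_of_le_of_card_ge (show K ≤ O from fun _ h => h.1) (by rw [cO, e])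
        have h6 := (h5 ▸ ic.mem : u ∈ K).2
        rw [conj_eq_of_comm ut.symm, eq_inv_iff_mul_eq_one, ← pow_two, ← orderOf_dvd_iff_pow_eq_one, ou] at h6
        norm_num at h6
    refine comm_mul (comm_zp ((SmallSimple.eq_zpowers_of_mem cK (mul_mem wK vK) hp).2 ▸ wK) ?_).symm bt.symm
    apply comm_of_conj_eq
    calc b * (w * (b * w * b⁻¹)) * b⁻¹ = b * w * b⁻¹ * ((b * b) * w * (b * b)⁻¹) := by group
      _ = _ := by rw [b2, ab _ wK.1 _ vK.1]; group

/-- S5578 -/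
theorem exists_pgl {j : JM z} (hj : j.Good) (hl : Loc j) (hc : Nat.card G = 86775571046077562880) :
    ∃ K : Subgroup G, Nonempty (K ≃* GL (Fin 2) (ZMod 23) ⧸ center (GL (Fin 2) (ZMod 23))) := by
  obtain ⟨I, I2, Ia, Iu⟩ := exists_invol hj hl hc
  have ra := pm_rp isM_qa
  have I1 : I ≠ 1 := fun e => by
    rw [e, one_mul, inv_one, mul_one, eq_inv_iff_mul_eq_one, ← map_mul, ← map_one j.κ] at Ia
    have := congrArg Subtype.val (j.toMM.κ_inj Ia)
    exact absurd ((ra.mul ra).isId_iff.2 this) (by decide +kernel)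
  obtain ⟨f, hf, fa, fu, fb⟩ : ∃ f : M24 →* G, Function.Injective f ∧ f a0 = j.κ a0 ∧ f u0 = uu j.toMM ∧
      I * f b0 = f b0 * I := by
    rcases comm_b0 hj hl hc I2 I1 Iu with h | h
    · exact ⟨j.κ, j.toMM.κ_inj, rfl, rfl, h⟩
    have k : ∀ g : M24, (g : P24) (pt 23) = pt 23 → (j.toMM.tw (pt 23)).κ g = j.κ g := fun g hg => by
      rw [MM.tw_κ, hg, symmDiff_self, Finset.bot_eq_empty, j.toMM.c_empty, one_mul]
    refine ⟨(j.toMM.tw (pt 23)).κ, MM.κ_inj _, k _ ((ra.pt_eq_iff (by norm_num) (by norm_num)).2 (by decide +kernel)),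
      k _ ((rp_u.pt_eq_iff (by norm_num) (by norm_num)).2 (by decide +kernel)), ?_⟩
    rwa [MM.tw_κ, show (b0 : P24) (pt 23) = pt 0 from
      ((pm_rp isM_qj).pt_eq_iff (by norm_num) (by norm_num)).2 (by decide +kernel),
      show symmDiff {pt 23} {pt 0} = ofMask 8388609 by decide +kernel]
  obtain ⟨K, Γ0, h, ⟨e⟩⟩ := exists_ext f hf {a0, u0, b0} d_not ((rp_d.mul rp_d).isId_iff.1 (by decide +kernel))
    (I := I) (by
      rintro ⟨g, rfl⟩
      rw [← fu, ← map_mul, ← map_mul] at Iu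
      obtain ⟨i, -, e⟩ := cent_qu g.2 (congrArg Subtype.val (hf Iu))
      rw [show g = u0 ^ i from Subtype.ext e, map_pow, fu] at I1 I2
      exact I1 (eq_one_of_coprime (m := 11) (by rw [← pow_mul, mul_comm, pow_mul, uu_pow, one_pow])
        ((pow_two _).trans I2) (by norm_num))) I2 (by
      rintro _ (rfl | rfl | rfl)
      · refine ⟨a0⁻¹, inv_mem (subset_closure (by simp)), ?_, by rw [map_inv, fa, Ia]⟩
        show pm qd * pm qa * (pm qd)⁻¹ = (pm qa)⁻¹
        rw [mul_inv_eq_iff_eq_mul, eq_inv_mul_iff_mul_eq]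
        exact ((ra.mul (rp_d.mul ra)).eqF_iff rp_d).1 (by decide +kernel)
      · exact ⟨u0, subset_closure (by simp), conj_eq_of_comm ((rp_d.intw_iff rp_u rp_u).1 (by decide +kernel)),
          by rw [fu, conj_eq_of_comm Iu]⟩
      · exact ⟨b0, subset_closure (by simp), conj_eq_of_comm
          ((rp_d.intw_iff (pm_rp isM_qj) (pm_rp isM_qj)).1 (by decide +kernel)), conj_eq_of_comm fb⟩)
  obtain ⟨e'⟩ := iso_pgl h
  exact ⟨K, ⟨e.trans e'⟩⟩

end CfsgLib.J4T.K
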