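import Mathlib
import Cfsg.Agent.Lib.J4T.TenC
import Cfsg.Agent.Lib.Coprime.Gaschutz
import Cfsg.Agent.Lib.Classical.SLCard

/-!
# The normaliser of `A0` is `2^10 : L5(2)`
-/

set_option autoImplicit false

namespace CfsgLib.J4T.Ten

open Cfsg CfsgLib.Golay CfsgLib.M24E Subgroup
open scoped Pointwise

variable {G : Type*} [Group G] {z : G} (m : MM z)

/-- the normaliser of `A0` -/
abbrev NA : Subgroup G := normalizer (A0 m : Set G)

theorem isConj_four {t : Finset GolayPt} (ht : t.card = 4) : IsConj z (m.c t) := by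
  obtain ⟨g, hg, e⟩ := finset_trans (s := ofMask 15) (t := t) (by rw [ht]; decide +kernel) (by decide +kernel)
  refine isConj_iff.2 ⟨m.κ ⟨g, hg⟩, ?_⟩
  have h := m.conj ⟨g, hg⟩ (ofMask 15) (by decide +kernel)
  rw [← m.z_eq] at h
  exact h.trans (congrArg m.c e)

theorem T_mem_V {x : ℕ} (hx : x < 1024) : T m x ∈ m.V ↔ x < 64 := by
  constructor
  · intro h
    obtain ⟨b, hb, e⟩ := (m.mem_V _).1 h
    have h1 : U (x / 64) = U 0 := κ_eq_of_eq m (even_e6 x) hb (by rw [U_zero, map_one, mul_one]; exact e)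
    have := U_inj (by omega) (by norm_num) h1
    omega
  · intro h
    rw [T_low m h]; exact c_mem m (even_e6 x)

theorem isConj_T (hf : m.Full) {x : ℕ} (hx : x < 1024) (h0 : x ≠ 0) : IsConj z (T m x) ↔ Q x = 0 := by
  by_cases h : x < 64
  · obtain ⟨t, -, h1, h2⟩ := low_check h h0
    rw [T_low m h, (c_eq_iff m (even_e6 x) (even_of_code (even_e6 x) h1)).2 h1]
    rcases h2 with ⟨h2, h3⟩ | ⟨h2, h3⟩
    exacts [iff_of_true (isConj_four m h2) h3, iff_of_false (hf.nconj t h2) h3]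
  · have h1 : U (x / 64) ≠ 1 := fun e => by
      have := U_inj (by omega) (by norm_num) (e.trans U_zero.symm)
      omega
    rw [T, hf.cls _ _ (even_e6 x) h1 (T_sq m x), inComm_iff hx (by omega)]
    exact ⟨fun h2 => h2.1 fun h3 => fixS_eq_empty.1 h3 (pt 0) (U_fix _ _ (by decide +kernel)),
      fun h2 => iff_of_true (fun h3 => fixS_eq_empty.1 h3 (pt 0) (U_fix _ _ (by decide +kernel))) h2⟩

/-! ### the action on the coordinates -/

open _root_.Classical in
/-- the action of `n` on the coordinates of `A0` -/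
noncomputable def α (n : G) (x : ℕ) : ℕ := if h : n * T m x * n⁻¹ ∈ A0 m then h.choose else 0

section
variable {m} {n n' : G} {x y h : ℕ}

theorem α_lt (n : G) (x : ℕ) : α m n x < 1024 := by
  unfold α
  split_ifs with h
  exacts [h.choose_spec.1, by norm_num]

theorem T_α (hn : n ∈ NA m) (hx : x < 1024) : T m (α m n x) = n * T m x * n⁻¹ := by
  have h := conj_mem_norm hn (T_mem m hx)
  rw [α, dif_pos h]
  exact h.choose_spec.2.symm

theorem α_eq (hn : n ∈ NA m) (hx : x < 1024) (hy : y < 1024) (e : n * T m x * n⁻¹ = T m y) : α m n x = y :=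
  T_inj m (α_lt n x) hy ((T_α hn hx).trans e)

theorem α_xor (hn : n ∈ NA m) (hx : x < 1024) (hy : y < 1024) : α m n (x ^^^ y) = α m n x ^^^ α m n y :=
  α_eq hn (xor_lt (n := 10) hx hy) (xor_lt (n := 10) (α_lt _ _) (α_lt _ _))
    (by rw [T_xor, T_xor, T_α hn hx, T_α hn hy, conj_mul])

theorem α_zero (hn : n ∈ NA m) : α m n 0 = 0 :=
  α_eq hn (by norm_num) (by norm_num) (by rw [T_zero, mul_one, mul_inv_cancel])

theorem α_mul (hn : n ∈ NA m) (hn' : n' ∈ NA m) (hx : x < 1024) : α m (n * n') x = α m n (α m n' x) :=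
  α_eq (mul_mem hn hn') hx (α_lt _ _) (by rw [T_α hn (α_lt _ _), T_α hn' hx]; group)

theorem α_of_mem (hn : n ∈ A0 m) (hx : x < 1024) : α m n x = x :=
  α_eq (le_normalizer hn) hx hx (by rw [(el_A0 m).comm hn (T_mem m hx), mul_inv_cancel_right])

theorem α_α_inv (hn : n ∈ NA m) (hx : x < 1024) : α m n (α m n⁻¹ x) = x := by
  rw [← α_mul hn (inv_mem hn) hx, mul_inv_cancel, α_of_mem (one_mem _) hx]

theorem α_ne (hn : n ∈ NA m) (hx : x < 1024) (h0 : x ≠ 0) : α m n x ≠ 0 := fun e => by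
  have := α_α_inv (inv_mem hn) hx
  rw [inv_inv, e, α_zero (inv_mem hn)] at this
  exact h0 this.symm

theorem Q_α (hf : m.Full) (hn : n ∈ NA m) (hx : x < 1024) : Q (α m n x) = 0 ↔ Q x = 0 := by
  by_cases h0 : x = 0
  · rw [h0, α_zero hn]
  rw [← isConj_T m hf (α_lt _ _) (α_ne hn hx h0), ← isConj_T m hf hx h0, T_α hn hx]
  have : IsConj (T m x) (n * T m x * n⁻¹) := isConj_iff.2 ⟨n, rfl⟩
  exact ⟨fun h => h.trans this.symm, fun h => h.trans this⟩

end

/-- the action of `n` on the hyperplanes -/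
noncomputable def π (n : G) (h : ℕ) : ℕ := Q (α m n (σ h))

section
variable {m} {n n' : G} {x y h h' : ℕ}

theorem π_lt (n : G) (h : ℕ) : π m n h < 32 := Q_lt _

theorem π_zero (hn : n ∈ NA m) : π m n 0 = 0 := by rw [π, σ_zero, α_zero hn, Q_zero]

theorem π_ne (hf : m.Full) (hn : n ∈ NA m) (hh : h < 32) (h0 : h ≠ 0) : π m n h ≠ 0 := fun e =>
  h0 ((Q_σ hh).symm.trans ((Q_α hf hn (σ_lt hh)).1 e))

theorem L_α (hf : m.Full) (hn : n ∈ NA m) (hh : h < 32) (h0 : h ≠ 0) (hx : L h x) : L (π m n h) (α m n x) := by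
  obtain ⟨k, -, rfl⟩ := (L_iff hh h0).1 hx
  have h1 := π_ne hf hn hh h0
  refine (encL_induction (P := fun a => a < 1024 ∧ L (π m n h) (α m n a))
    ⟨by norm_num, by rw [α_zero hn]; exact L_zero (π_lt _ _) h1⟩ (fun a b ha hb => ⟨xor_lt (n := 10) ha.1 hb.1, by
      rw [α_xor hn ha.1 hb.1]; exact L_xor (π_lt _ _) h1 ha.2 hb.2⟩) _ (fun t ht => ?_) k).2
  obtain ⟨h2, h3, h4⟩ := tl_spec hh ht
  refine ⟨h2, L_of_Q (α_lt _ _) (α_lt _ _) ((Q_α hf hn h2).2 h3) ?_ h1⟩
  rw [← α_xor hn h2 (σ_lt hh)]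
  exact (Q_α hf hn (xor_lt (n := 10) h2 (σ_lt hh))).2 h4

theorem Q_α' (hf : m.Full) (hn : n ∈ NA m) (hx : x < 1024) : Q (α m n x) = π m n (Q x) := by
  by_cases h0 : Q x = 0
  · rw [h0, π_zero hn, (Q_α hf hn hx).2 h0]
  · exact Q_of_L (π_lt _ _) (π_ne hf hn (Q_lt x) h0) (L_α hf hn (Q_lt x) h0 (L_Q hx h0))
      fun e => h0 ((Q_α hf hn hx).1 e)

theorem π_mul (hf : m.Full) (hn : n ∈ NA m) (hn' : n' ∈ NA m) (hh : h < 32) :
    π m (n * n') h = π m n (π m n' h) := by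
  rw [π, α_mul hn hn' (σ_lt hh), Q_α' hf hn (α_lt _ _)]; rfl

theorem π_of_mem (hn : n ∈ A0 m) (hh : h < 32) : π m n h = h := by rw [π, α_of_mem hn (σ_lt hh), Q_σ hh]

theorem π_inv_π (hf : m.Full) (hn : n ∈ NA m) (hh : h < 32) : π m n⁻¹ (π m n h) = h := by
  rw [← π_mul hf (inv_mem hn) hn hh, inv_mul_cancel, π_of_mem (one_mem _) hh]

theorem π_inj (hf : m.Full) (hn : n ∈ NA m) (hh : h < 32) (hh' : h' < 32) (e : π m n h = π m n h') : h = h' := by
  rw [← π_inv_π hf hn hh, e, π_inv_π hf hn hh']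

theorem π_xor (hf : m.Full) (hn : n ∈ NA m) (hh : h < 32) (hh' : h' < 32) :
    π m n (h ^^^ h') = π m n h ^^^ π m n h' := by
  by_cases h0 : h = 0
  · rw [h0, π_zero hn, Nat.zero_xor, Nat.zero_xor]
  by_cases h0' : h' = 0
  · rw [h0', π_zero hn, Nat.xor_zero, Nat.xor_zero]
  by_cases hne : h = h'
  · rw [hne, Nat.xor_self, Nat.xor_self, π_zero hn]
  have lt := xor_lt (n := 5) hh hh'
  have w0 : h ^^^ h' ≠ 0 := fun e => hne (Nat.xor_eq_zero_iff.1 e)
  have u0 := π_ne hf hn hh h0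
  have u0' := π_ne hf hn hh' h0'
  have key := (collinear (π_lt n h) (π_lt n h') (π_lt n (h ^^^ h')) u0 u0' (π_ne hf hn lt w0)
    fun e => hne (π_inj hf hn hh hh' e)).1 fun a ha ha' => by
      have h1 := L_α hf (inv_mem hn) (π_lt n h) u0 ha
      have h2 := L_α hf (inv_mem hn) (π_lt n h') u0' ha'
      rw [π_inv_π hf hn hh] at h1
      rw [π_inv_π hf hn hh'] at h2
      have h3 := L_α hf hn lt w0 ((collinear hh hh' lt h0 h0' w0 hne).2 (Or.inr (Or.inr rfl)) _ h1 h2)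
      rwa [α_α_inv hn (L_lt (π_lt n h) u0 ha)] at h3
  rcases key with e | e | e
  · have h1 := congrArg (h ^^^ ·) (π_inj hf hn lt hh e)
    simp only [← Nat.xor_assoc, Nat.xor_self, Nat.zero_xor] at h1
    exact absurd h1 h0'
  · have h1 := congrArg (· ^^^ h') (π_inj hf hn lt hh' e)
    simp only [Nat.xor_assoc, Nat.xor_self, Nat.xor_zero] at h1
    exact absurd h1 h0
  · exact e

theorem mem_A0_of_π (hf : m.Full) (hn : n ∈ NA m) (e : ∀ h < 32, π m n h = h) : n ∈ A0 m := by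
  have h1 : ∀ x < 2 ^ 10, α m n x = x := by
    refine bits_ind' 10 (α_zero hn) (fun i hi => ?_) fun x hx y hy h1 h2 => by rw [α_xor hn hx hy, h1, h2]
    have lt : 2 ^ i < 1024 := Nat.pow_lt_pow_right (m := i) (n := 10) (by norm_num) hi
    refine (eq_of_L hi (α_lt n _) fun u hu u0 h => ?_).resolve_left (α_ne hn lt (by positivity))
    have := L_α hf hn hu u0 h
    rwa [e u hu] at this
  rw [← cent_A0 m hf]
  rintro _ ⟨x, hx, rfl⟩
  have := T_α hn hx
  rw [h1 x hx, eq_mul_inv_iff_mul_eq] at this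
  exact this

theorem π_16 (hf : m.Full) (hn : n ∈ NA m) (hh : h < 32) (h0 : h ≠ 0) (hV : n * T m (σ h) * n⁻¹ ∈ m.V) :
    π m n h = 16 := by
  rw [← T_α hn (σ_lt hh), T_mem_V m (α_lt _ _)] at hV
  exact Q_of_L (by norm_num) (by norm_num) (L_16.2 hV) (π_ne hf hn hh h0)

theorem π_16_of_NV (hf : m.Full) (hn : n ∈ NA m) (hn' : n ∈ NV m) : π m n 16 = 16 :=
  π_16 hf hn (by norm_num) (by norm_num) (conj_mem_norm hn' ((T_mem_V m (σ_lt (by norm_num))).2 (by decide +kernel)))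

end

/-! ### the homomorphism to `SL5(2)` -/

/-- the linear map induced by `n` -/
noncomputable def lin (hf : m.Full) (n : NA m) : (Fin 5 → ZMod 2) →ₗ[ZMod 2] (Fin 5 → ZMod 2) :=
  (AddMonoidHom.mk' (fun v => dec (π m n (enc v))) fun v w => by
    rw [enc_add, π_xor hf n.2 (enc_lt v) (enc_lt w), dec_xor]).toZModLinearMap 2

theorem lin_apply (hf : m.Full) (n : NA m) (v : Fin 5 → ZMod 2) : lin m hf n v = dec (π m n (enc v)) := rfl

theorem lin_mul (hf : m.Full) (n n' : NA m) : lin m hf (n * n') = lin m hf n ∘ₗ lin m hf n' := by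
  refine LinearMap.ext fun v => ?_
  rw [LinearMap.comp_apply, lin_apply, lin_apply, lin_apply, enc_dec (π_lt _ _), coe_mul, π_mul hf n.2 n'.2 (enc_lt v)]

theorem lin_eq_id (hf : m.Full) (n : NA m) : lin m hf n = LinearMap.id ↔ (n : G) ∈ A0 m := by
  constructor
  · intro e
    refine mem_A0_of_π hf n.2 fun h hh => ?_
    have := congrArg enc (LinearMap.congr_fun e (dec h))
    rwa [lin_apply, enc_dec (π_lt _ _), LinearMap.id_apply, enc_dec hh] at this
  · intro h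
    refine LinearMap.ext fun v => ?_
    rw [lin_apply, π_of_mem h (enc_lt v), dec_enc, LinearMap.id_apply]

/-- the map `N(A0) → SL5(2)` -/
noncomputable def φ (hf : m.Full) : NA m →* Matrix.SpecialLinearGroup (Fin 5) (ZMod 2) :=
  MonoidHom.mk' (fun n => ⟨LinearMap.toMatrix' (lin m hf n), by
    have h1 : LinearMap.toMatrix' (lin m hf n) * LinearMap.toMatrix' (lin m hf n⁻¹) = 1 := by
      rw [← LinearMap.toMatrix'_comp, ← lin_mul, mul_inv_cancel, (lin_eq_id m hf 1).2 (one_mem _),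
        LinearMap.toMatrix'_id]
    have h2 := congrArg Matrix.det h1
    rw [Matrix.det_mul, Matrix.det_one] at h2
    exact (by decide : ∀ a b : ZMod 2, a * b = 1 → a = 1) _ _ h2⟩)
    fun n n' => Subtype.ext (by
      show LinearMap.toMatrix' _ = LinearMap.toMatrix' _ * LinearMap.toMatrix' _
      rw [lin_mul, LinearMap.toMatrix'_comp])

theorem ker_φ (hf : m.Full) : (φ m hf).ker = (A0 m).subgroupOf (NA m) := by
  ext n
  rw [MonoidHom.mem_ker, mem_subgroupOf, ← lin_eq_id m hf]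
  have h : φ m hf n = 1 ↔ LinearMap.toMatrix' (lin m hf n) = 1 := Subtype.ext_iff
  rw [h, ← LinearMap.toMatrix'_id, EmbeddingLike.apply_eq_iff_eq]

theorem card_SL5 : Nat.card (Matrix.SpecialLinearGroup (Fin 5) (ZMod 2)) = 9999360 := by
  have := CfsgLib.Classical.sl_card_mul (ι := Fin 5) (F := ZMod 2)
  rw [Matrix.card_GL_field, ZMod.card, Fin.prod_univ_five] at this
  exact (one_mul _).symm.trans (this.trans (by decide))

/-! ### elements of the normaliser -/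

theorem exists_U_conj {g : M24} (hg : (g : P24) • ofMask o0 = ofMask o0) (y : ℕ) :
    ∃ y' < 16, g * U y' * g⁻¹ = U y := by
  obtain ⟨y', hy', e⟩ := exists_U (g := g⁻¹ * U y * g) ((conj_fix_iff g (U y) _).2 (hg.symm ▸ U_fix y))
  exact ⟨y', hy', by rw [← e]; group⟩

theorem κU_mem {y : ℕ} (hy : y < 16) : m.c (e7 0) * m.κ (U y) ∈ A0 m :=
  ⟨64 * y + 0, by omega, (T_eq m (by norm_num) hy).symm⟩

theorem e7_zero : e7 0 = ∅ := ofMask_zero

theorem κ_mem_NA {g : M24} (hg : (g : P24) • ofMask o0 = ofMask o0) : m.κ g ∈ NA m := by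
  obtain ⟨y, hy, e⟩ := exists_U_conj hg 1
  have h1 := conj_mem_cj (g := m.κ g) (κU_mem m hy)
  rw [conj_κ m (even_e7 0), e, e7_zero, Finset.smul_finset_empty, ← e7_zero] at h1
  exact cj_eq_iff.1 (eq_A0 m (cj_le (A0_le m) (κ_mem m g)) ((el_A0 m).cj _) (by rw [card_cj, card_A0])
    (by norm_num) h1)

theorem eq_one_of_mem {g : M24} (h : m.c (ofMask 3) * m.κ g * (m.c (ofMask 3))⁻¹ ∈ A0 m) : g = 1 := by
  obtain ⟨x, hx, e⟩ := h
  have h1 := conj_v m (a := ∅) (by simp) g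
  have ev := even_symmDiff even_3 (even_smul (g : P24) even_3)
  rw [c_empty, one_mul, one_mul, e, ← Nat.div_add_mod x 64, T_eq m (Nat.mod_lt _ (by norm_num)) (by omega)] at h1
  have h2 := κ_eq_of_eq m (even_e7 _) ev h1
  rw [← h2, mul_left_inj, eq_comm, c_eq_iff m (h2 ▸ ev) (even_e7 _)] at h1
  rw [← h2, not_code_v (by omega) (Nat.mod_lt _ (by norm_num)) h1, U_zero]

theorem v_mem_NA {g : M24} (hg : (g : P24) • ofMask o0 = ofMask o0) :
    m.c (ofMask 3) * m.κ g * (m.c (ofMask 3))⁻¹ ∈ NA m := by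
  obtain ⟨y, hy, e⟩ := exists_U_conj hg 1
  have h1 := conj_mem_cj (g := m.κ g) (conj_mem_cj (g := m.c (ofMask 3)) (κU_mem m hy))
  have ev := even_symmDiff even_3 (even_smul (U y : P24) even_3)
  rw [conj_v m (even_e7 0), e7_zero, c_empty, one_mul, conj_κ m ev, e] at h1
  rcases eq_A0_or m (cj_le (cj_le (A0_le m) (c_mem_NV m even_3)) (κ_mem m g)) (((el_A0 m).cj _).cj _)
    (by rw [card_cj, card_cj, card_A0]) (even_smul _ ev) h1 with h | h
  · exfalso
    have h2 : cj (m.c (ofMask 3)) (A0 m) = A0 m := by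
      have := congrArg (cj (m.κ g)⁻¹) h
      rwa [cj_cj, cj_cj, inv_mul_cancel, one_mul, cj_eq_iff.2 (inv_mem (κ_mem_NA m hg))] at this
    have h3 := conj_mem_cj (g := m.c (ofMask 3)) (κU_mem m (y := 1) (by norm_num))
    rw [h2, e7_zero, c_empty, one_mul] at h3
    exact absurd (U_inj (by norm_num) (by norm_num) ((eq_one_of_mem m h3).trans U_zero.symm)) (by norm_num)
  · rw [cj_cj, cj_cj] at h
    rw [c_inv m even_3]
    exact cj_eq_iff.1 h

/-- a complement to `A0` in its normaliser in `M` -/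
noncomputable def jm : MulAction.stabilizer M24 (ofMask o0) →* NA m :=
  MonoidHom.mk' (fun g => ⟨_, v_mem_NA m (g := g) g.2⟩) fun g h => Subtype.ext (by
    show m.c (ofMask 3) * m.κ (g * h) * _ = m.c (ofMask 3) * m.κ g * _ * (m.c (ofMask 3) * m.κ h * _)
    rw [map_mul, conj_mul])

theorem jm_inf : (jm m).range ⊓ (A0 m).subgroupOf (NA m) = ⊥ := by
  rw [eq_bot_iff]
  rintro _ ⟨⟨g, rfl⟩, h⟩
  rw [show g = 1 from Subtype.ext (eq_one_of_mem m h), map_one]
  exact one_mem _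

theorem card_jm : Nat.card (jm m).range = 322560 := by
  rw [← card_stab_o0']
  refine (Nat.card_congr (MonoidHom.ofInjective ((injective_iff_map_eq_one _).2 fun g h => ?_)).toEquiv).symm
  exact Subtype.ext (eq_one_of_mem m (by
    rw [show m.c (ofMask 3) * m.κ g * (m.c (ofMask 3))⁻¹ = 1 from congrArg Subtype.val h]; exact one_mem _))

theorem not_le_V (hV : Nat.card m.V = 2 ^ 11) {A : Subgroup G} (hc : Nat.card A = 1024)
    (hs : centralizer (A : Set G) = A) : ¬ A ≤ m.V := by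
  intro h
  have : Finite A := Nat.finite_of_card_ne_zero (by rw [hc]; norm_num)
  have h1 : m.V ≤ A := fun x hx => hs ▸ fun y hy => (el_V m).comm (h hy) hx
  have h2 := card_le_of_le h1
  omega

/-- the normaliser is transitive on the hyperplanes -/
theorem exists_π (hf : m.Full) (hV : Nat.card m.V = 2 ^ 11) {h : ℕ} (hh : h < 32) (h0 : h ≠ 0) :
    ∃ n ∈ NA m, π m n h = 16 := by
  have h1 : σ h ≠ 0 := fun e => h0 (by rw [← Q_σ hh, e, Q_zero])
  obtain ⟨g, e⟩ := isConj_iff.1 ((hf.two _ (fun e => h1 (T_eq_one m (σ_lt hh) e)) (T_sq m _)).resolve_left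
    fun e => h0 ((Q_σ hh).symm.trans ((isConj_T m hf (σ_lt hh) h1).1 e)))
  have h2 : cj g⁻¹ (A0 m) ≤ NV m := by
    refine le_trans (fun x hx => mem_centralizer_singleton_iff.2 ?_) (hf.cent_duad (ofMask 3) (by decide +kernel))
    refine ((el_A0 m).cj g⁻¹).comm hx (mem_cj.2 ?_)
    rw [inv_inv, e]; exact T_mem m (σ_lt hh)
  have h3 : Nat.card (cj g⁻¹ (A0 m)) = 1024 := by rw [card_cj, card_A0]
  obtain ⟨n, hn, e1⟩ := class_M m h2 ((el_A0 m).cj _) h3 (not_le_V m hV h3 (cent_cj (cent_A0 m hf) _))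
  rw [cj_cj, cj_eq_iff] at e1
  refine ⟨_, e1, π_16 hf e1 hh h0 ?_⟩
  have := conj_mem_norm hn (c_mem m even_3)
  rw [← e]
  convert this using 1
  group

theorem card_K : Nat.card ((A0 m).subgroupOf (NA m)) = 1024 := by
  rw [Nat.card_congr (subgroupOfEquivOfLe le_normalizer).toEquiv, card_A0]

theorem card_KJ : Nat.card ((A0 m).subgroupOf (NA m) ⊔ (jm m).range : Subgroup (NA m)) = 1024 * 322560 := by
  have h1 := card_mul_index (((A0 m).subgroupOf (NA m)).subgroupOf ((A0 m).subgroupOf (NA m) ⊔ (jm m).range))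
  rw [Nat.card_congr (subgroupOfEquivOfLe le_sup_left).toEquiv, card_K] at h1
  have h2 : ((A0 m).subgroupOf (NA m)).relIndex ((A0 m).subgroupOf (NA m) ⊔ (jm m).range) = 322560 := by
    rw [relIndex_sup_left, ← inf_relIndex_left, jm_inf, relIndex_bot_left, card_jm]
  rw [← h1]
  exact congrArg _ h2

variable [Finite G]

theorem card_NA_ge (hf : m.Full) (hV : Nat.card m.V = 2 ^ 11) : 31 * (1024 * 322560) ≤ Nat.card (NA m) := by
  let act : MulAction (NA m) (Fin 32) :=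
    { smul := fun n h => ⟨π m n h, π_lt _ _⟩
      one_smul := fun h => Fin.ext (π_of_mem (one_mem _) h.2)
      mul_smul := fun n n' h => Fin.ext (π_mul hf n.2 n'.2 h.2) }
  have h1 := card_mul_index (MulAction.stabilizer (NA m) (16 : Fin 32))
  rw [MulAction.index_stabilizer] at h1
  have h2 : (A0 m).subgroupOf (NA m) ⊔ (jm m).range ≤ MulAction.stabilizer (NA m) (16 : Fin 32) := by
    refine sup_le (fun n hn => Fin.ext (π_of_mem hn (by norm_num))) ?_
    rintro _ ⟨g, rfl⟩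
    exact Fin.ext (π_16_of_NV hf (jm m g).2
      (mul_mem (mul_mem (c_mem_NV m even_3) (κ_mem m _)) (inv_mem (c_mem_NV m even_3))))
  have h3 : ({0}ᶜ : Set (Fin 32)) ⊆ MulAction.orbit (NA m) (16 : Fin 32) := by
    intro h hh
    obtain ⟨n, hn, e⟩ := exists_π m hf hV h.2 fun e => hh (Fin.ext e)
    refine ⟨⟨n, hn⟩⁻¹, Fin.ext ?_⟩
    show π m n⁻¹ 16 = h
    rw [← e, π_inv_π hf hn h.2]
  have h4 := Set.ncard_le_ncard h3 (Set.toFinite _)
  rw [Set.ncard_compl, Set.ncard_singleton, Nat.card_eq_fintype_card, Fintype.card_fin] at h4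
  have h5 := card_le_of_le h2
  rw [card_KJ] at h5
  rw [← h1, mul_comm]
  exact Nat.mul_le_mul h5 h4

theorem φ_surj (hf : m.Full) (hV : Nat.card m.V = 2 ^ 11) :
    Function.Surjective (φ m hf) ∧ Nat.card (NA m) = 1024 * 9999360 := by
  have h1 := card_mul_index (φ m hf).ker
  rw [index_ker, ker_φ, card_K] at h1
  have h2 := card_NA_ge m hf hV
  have h3 := card_le_card_group (φ m hf).range
  rw [card_SL5] at h3
  have h4 : Nat.card (φ m hf).range = 9999360 := by omega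
  exact ⟨MonoidHom.range_eq_top.1 (eq_top_of_card_eq _ (h4.trans card_SL5.symm)), by rw [← h1, h4]⟩

theorem exists_compl (hf : m.Full) (hV : Nat.card m.V = 2 ^ 11) :
    ∃ B : Subgroup G, B ≤ NA m ∧ B ⊓ A0 m = ⊥ ∧ B ⊔ A0 m = NA m ∧
      Nonempty (B ≃* Matrix.SpecialLinearGroup (Fin 5) (ZMod 2)) := by
  obtain ⟨h1, h2⟩ := φ_surj m hf hV
  have : IsMulCommutative ((A0 m).subgroupOf (NA m)) :=
    ⟨⟨fun x y => Subtype.ext (Subtype.ext ((el_A0 m).comm x.2 y.2))⟩⟩
  have h3 := card_mul_index ((A0 m).subgroupOf (NA m) ⊔ (jm m).range : Subgroup (NA m))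
  rw [card_KJ, h2] at h3
  obtain ⟨H, hH⟩ := Coprime.gaschutz_exists (K := (A0 m).subgroupOf (NA m))
    (U := (A0 m).subgroupOf (NA m) ⊔ (jm m).range) (by
      rw [card_K, show ((A0 m).subgroupOf (NA m) ⊔ (jm m).range : Subgroup (NA m)).index = 31 by omega]; norm_num)
    (jm_inf m) rfl
  refine ⟨H.map (NA m).subtype, map_subtype_le H, ?_, ?_, ⟨?_⟩⟩
  · rw [eq_bot_iff]
    rintro _ ⟨⟨x, hx, rfl⟩, h⟩
    rw [show x = 1 from (disjoint_def.1 hH.disjoint) h hx, map_one]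
    exact one_mem _
  · have := congrArg (map (NA m).subtype) hH.sup_eq_top
    rwa [Subgroup.map_sup, subgroupOf_map_subtype, inf_of_le_left le_normalizer, ← MonoidHom.range_eq_map, range_subtype,
      sup_comm] at this
  · refine (H.equivMapOfInjective _ (NA m).subtype_injective).symm.trans
      (MulEquiv.ofBijective ((φ m hf).comp H.subtype) ((Nat.bijective_iff_injective_and_card _).2 ⟨?_, ?_⟩))
    · refine (injective_iff_map_eq_one _).2 fun x hx => Subtype.ext ((disjoint_def.1 hH.disjoint) ?_ x.2)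
      rw [← ker_φ m hf]; exact hx
    · have := hH.card_mul_card
      rw [card_K, h2] at this
      rw [card_SL5]; omega

/-! ### orbits -/

omit [Finite G] in
theorem conj_T (hf : m.Full) (hV : Nat.card m.V = 2 ^ 11) {x y : ℕ} (hx : x < 1024) (hy : y < 1024) (x0 : x ≠ 0)
    (y0 : y ≠ 0) (h : Q x = 0 ↔ Q y = 0) : ∃ n ∈ NA m, n * T m x * n⁻¹ = T m y := by
  have low : ∀ x < 1024, ∃ n ∈ NA m, α m n x < 64 := fun x hx => by
    obtain ⟨h, hh, h0, h1⟩ := exists_L hx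
    obtain ⟨n, hn, e⟩ := exists_π m hf hV hh h0
    exact ⟨n, hn, L_16.1 (e ▸ L_α hf hn hh h0 h1)⟩
  obtain ⟨n, hn, h1⟩ := low x hx
  obtain ⟨n', hn', h1'⟩ := low y hy
  obtain ⟨t, h2, h3, h4⟩ := low_check h1 (α_ne hn hx x0)
  obtain ⟨t', h2', h3', h4'⟩ := low_check h1' (α_ne hn' hy y0)
  rw [ne_eq, Q_α hf hn hx] at h4
  rw [ne_eq, Q_α hf hn' hy, ← h] at h4'
  obtain ⟨g, hg, e1, e2⟩ := exists_stab o0_mem h2 h2' (by omega) (by omega)
  have ev := even_of_code (even_e6 _) h3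
  have ev' := even_of_code (even_e6 _) h3'
  have e3 := m.conj ⟨g, hg⟩ t ev
  rw [show ((⟨g, hg⟩ : M24) : P24) • t = t' from e2, ← (c_eq_iff m (even_e6 _) ev).2 h3,
    ← (c_eq_iff m (even_e6 _) ev').2 h3', ← T_low m h1, ← T_low m h1', T_α hn hx, T_α hn' hy] at e3
  refine ⟨n'⁻¹ * m.κ ⟨g, hg⟩ * n, mul_mem (mul_mem (inv_mem hn') (κ_mem_NA m e1)) hn, ?_⟩
  calc _ = n'⁻¹ * (m.κ ⟨g, hg⟩ * (n * T m x * n⁻¹) * (m.κ ⟨g, hg⟩)⁻¹) * n' := by group
    _ = _ := by rw [e3]; group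

omit [Finite G] in
theorem ncard_orbit (hf : m.Full) (hV : Nat.card m.V = 2 ^ 11) {x : ℕ} (hx : x < 1024) (x0 : x ≠ 0)
    (P : ℕ → Prop) [DecidablePred P] (hP : ∀ y, P y ↔ y ≠ 0 ∧ (Q x = 0 ↔ Q y = 0)) :
    {v | ∃ n ∈ NA m, n * T m x * n⁻¹ = v}.ncard = ((Finset.range 1024).filter P).card := by
  rw [← Set.ncard_coe_finset]
  symm
  refine Set.ncard_congr (fun y _ => T m y) (fun y hy => ?_) (fun y y' hy hy' e => ?_) ?_
  · rw [Finset.mem_coe, Finset.mem_filter, Finset.mem_range, hP] at hy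
    exact conj_T m hf hV hx hy.1 x0 hy.2.1 hy.2.2
  · rw [Finset.mem_coe, Finset.mem_filter, Finset.mem_range] at hy hy'
    exact T_inj m hy.1 hy'.1 e
  · rintro _ ⟨n, hn, rfl⟩
    refine ⟨α m n x, ?_, T_α hn hx⟩
    rw [Finset.mem_coe, Finset.mem_filter, Finset.mem_range, hP]
    exact ⟨α_lt _ _, α_ne hn hx x0, (Q_α hf hn hx).symm⟩

omit [Finite G] in
theorem orbits_A0 (hf : m.Full) (hV : Nat.card m.V = 2 ^ 11) : ∃ a b : G, a ∈ A0 m ∧ b ∈ A0 m ∧
    {v | ∃ n ∈ NA m, n * a * n⁻¹ = v}.ncard = 155 ∧ {v | ∃ n ∈ NA m, n * b * n⁻¹ = v}.ncard = 868 := by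
  have h1 : Q 1 = 0 := by decide +kernel
  have h2 : Q 33 ≠ 0 := by decide +kernel
  refine ⟨T m 1, T m 33, T_mem m (by norm_num), T_mem m (by norm_num), ?_, ?_⟩
  · rw [← card_QA]
    exact ncard_orbit m hf hV (by norm_num) (by norm_num) _ fun y => by simp [h1]
  · rw [← card_QB]
    refine ncard_orbit m hf hV (by norm_num) (by norm_num) _ fun y => ⟨fun h => ⟨?_, iff_of_false h2 h⟩, fun h e => ?_⟩
    · rintro rfl; exact h Q_zero
    · exact h2 (h.2.2 e)

omit [Finite G] in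
theorem irred_A0 (hf : m.Full) (hV : Nat.card m.V = 2 ^ 11) (W : Subgroup G) (hW : W ≤ A0 m)
    (hN : NA m ≤ normalizer (W : Set G)) : W = ⊥ ∨ W = A0 m := by
  refine or_iff_not_imp_left.2 fun h => le_antisymm hW ?_
  have step : ∀ x < 1024, x ≠ 0 → T m x ∈ W → ∀ y < 1024, y ≠ 0 → (Q x = 0 ↔ Q y = 0) → T m y ∈ W := by
    intro x hx x0 h1 y hy y0 h2
    obtain ⟨n, hn, e⟩ := conj_T m hf hV hx hy x0 y0 h2
    rw [← e]; exact conj_mem_norm (hN hn) h1
  obtain ⟨⟨w, hw⟩, h1⟩ := ne_bot_iff_exists_ne_one.1 h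
  obtain ⟨x, hx, rfl⟩ := hW hw
  have x0 : x ≠ 0 := by
    rintro rfl
    exact h1 (Subtype.ext (T_zero m))
  have h2 : T m 2 ∈ W := by
    by_cases h3 : Q x = 0
    · exact step x hx x0 hw 2 (by norm_num) (by norm_num) (iff_of_true h3 (by decide +kernel))
    · rw [show 2 = 33 ^^^ 35 by decide, T_xor]
      exact mul_mem (step x hx x0 hw 33 (by norm_num) (by norm_num) (iff_of_false h3 (by decide +kernel)))
        (step x hx x0 hw 35 (by norm_num) (by norm_num) (iff_of_false h3 (by decide +kernel)))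
  rintro _ ⟨y, hy, rfl⟩
  refine bits_ind' 10 (P := fun y => T m y ∈ W) (by rw [T_zero]; exact one_mem _) (fun i hi => ?_)
    (fun x _ y _ h1 h2 => by rw [T_xor]; exact mul_mem h1 h2) y hy
  exact step 2 (by norm_num) (by norm_num) h2 _ (Nat.pow_lt_pow_right (m := i) (n := 10) (by norm_num) hi)
    (by positivity) (iff_of_true (by decide +kernel) (Q_pow hi))

end CfsgLib.J4T.Ten
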