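import Mathlib
import Cfsg.Agent.Lib.J4T.TenD

/-!
# Groups of Janko-four type: the subgroup `2^10 : L5(2)`
-/

set_option autoImplicit false

namespace CfsgLib.J4T

open Cfsg CfsgLib.Golay CfsgLib.M24E Subgroup Ten
open scoped Pointwise

variable {G : Type*} [Group G] [Finite G] {z : G} {j : JM z}

omit [Finite G] in
theorem JM.Good.card_V (hj : j.Good) : Nat.card j.V = 2 ^ 11 := hj.V_eq ▸ hj.wc.card

omit [Finite G] in
theorem Ten.norm_cj (g : G) (A : Subgroup G) : normalizer (cj g A : Set G) = cj g (normalizer (A : Set G)) :=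
  (map_equiv_normalizer_eq A (MulAut.conj g)).symm

/-- every 2-subgroup is conjugate into `N(V)` -/
theorem JM.Good.exists_cj_le (hj : j.Good) {A : Subgroup G} (hA : IsPGroup 2 A) : ∃ g : G, cj g A ≤ NV j.toMM := by
  have : Fact (Nat.Prime 2) := ⟨Nat.prime_two⟩
  obtain ⟨S, hS⟩ := (IsPGroup.of_card hj.card_V).exists_le_sylow
  obtain ⟨S', hS'⟩ := hA.exists_le_sylow
  obtain ⟨g, e⟩ := MulAction.exists_smul_eq G S' S
  refine ⟨g, le_trans ?_ (show (S : Subgroup G) ≤ _ from fun x hx => ?_)⟩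
  · rintro _ ⟨x, hx, rfl⟩
    rw [← e, Sylow.coe_subgroup_smul]
    exact smul_mem_pointwise_smul _ _ _ (hS' hx)
  · rw [hj.V_eq] at hS
    show x ∈ normalizer (j.V : Set G)
    rw [hj.V_eq]
    exact hj.wc.two_group S x S.isPGroup' hS (cj_le hS hx)

/-- the self-centralising elementary abelian subgroups of order `2 ^ 10` are conjugate to `A0` -/
theorem JM.Good.ten_conj (hj : j.Good) {A : Subgroup G} (hE : IsElementaryAbelian 2 A) (hc : Nat.card A = 2 ^ 10)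
    (hs : centralizer (A : Set G) = A) : ∃ g : G, A = cj g (A0 j.toMM) := by
  obtain ⟨g, hg⟩ := hj.exists_cj_le (IsPGroup.of_card hc)
  have h1 : Nat.card (cj g A) = 1024 := by rw [card_cj, hc]; norm_num
  obtain ⟨n, -, e⟩ := class_M j.toMM hg ((el_iff.1 hE).cj g) h1 (not_le_V j.toMM hj.card_V h1 (cent_cj hs g))
  exact ⟨(n * g)⁻¹, by rw [← e, cj_cj, cj_cj, mul_assoc, inv_mul_cancel, cj_one]⟩

theorem JM.Good.sl5 {j : JM z} (hj : j.Good) :
    ∃ B : Subgroup G, Nonempty (B ≃* Matrix.SpecialLinearGroup (Fin 5) (ZMod 2)) := by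
  obtain ⟨B, -, -, -, h⟩ := exists_compl j.toMM hj.full hj.card_V
  exact ⟨B, h⟩

/-- the conclusion of S5570 -/
theorem JM.Good.two_ten (hj : j.Good) :
    (∃ A : Subgroup G, IsElementaryAbelian 2 A ∧ Nat.card A = 2 ^ 10 ∧ centralizer (A : Set G) = A) ∧
    (∀ A A' : Subgroup G, IsElementaryAbelian 2 A → Nat.card A = 2 ^ 10 → centralizer (A : Set G) = A →
      IsElementaryAbelian 2 A' → Nat.card A' = 2 ^ 10 → centralizer (A' : Set G) = A' →
      ∃ g : G, A' = A.map (MulAut.conj g).toMonoidHom) ∧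
    ∀ A : Subgroup G, IsElementaryAbelian 2 A → Nat.card A = 2 ^ 10 → centralizer (A : Set G) = A →
      (∃ B : Subgroup G, B ≤ normalizer (A : Set G) ∧ B ⊓ A = ⊥ ∧ B ⊔ A = normalizer (A : Set G) ∧
        Nonempty (B ≃* Matrix.SpecialLinearGroup (Fin 5) (ZMod 2))) ∧
      ∀ W : Subgroup G, W ≤ A → normalizer (A : Set G) ≤ normalizer (W : Set G) → W = ⊥ ∨ W = A := by
  refine ⟨⟨A0 j.toMM, el_iff.2 (el_A0 _), card_A0 _, cent_A0 _ hj.full⟩, fun A A' h1 h2 h3 h1' h2' h3' => ?_,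
    fun A h1 h2 h3 => ?_⟩
  · obtain ⟨g, rfl⟩ := hj.ten_conj h1 h2 h3
    obtain ⟨g', rfl⟩ := hj.ten_conj h1' h2' h3'
    exact ⟨g' * g⁻¹, ((cj_cj _ _ _).trans (by rw [inv_mul_cancel_right])).symm⟩
  obtain ⟨g, rfl⟩ := hj.ten_conj h1 h2 h3
  rw [norm_cj]
  constructor
  · obtain ⟨B, b1, b2, b3, ⟨e⟩⟩ := exists_compl j.toMM hj.full hj.card_V
    refine ⟨cj g B, map_mono b1, ?_, ?_, ⟨(B.equivMapOfInjective _ (MulAut.conj g).injective).symm.trans e⟩⟩
    · rw [← Subgroup.map_inf _ _ _ (MulAut.conj g).injective, b2, Subgroup.map_bot]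
    · rw [← Subgroup.map_sup, b3]
  · intro W hW hN
    have e : ∀ X : Subgroup G, cj g⁻¹ (cj g X) = X := fun X => by rw [cj_cj, inv_mul_cancel, cj_one]
    have e' : W = cj g (cj g⁻¹ W) := by rw [cj_cj, mul_inv_cancel, cj_one]
    rcases irred_A0 j.toMM hj.full hj.card_V (cj g⁻¹ W) (e (A0 j.toMM) ▸ map_mono hW)
      (by rw [norm_cj, ← e (NA j.toMM)]; exact map_mono hN) with h | h
    · left; rw [e', h, Ten.cj, Subgroup.map_bot]
    · right; rw [e', h]

/-- the conclusion of S5571 -/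
theorem JM.Good.two_ten_orbits (hj : j.Good) (A : Subgroup G) (hA : IsElementaryAbelian 2 A)
    (hcard : Nat.card A = 2 ^ 10) (hself : centralizer (A : Set G) = A) :
    ∃ a b : G, a ∈ A ∧ b ∈ A ∧ Set.ncard {v : G | ∃ n ∈ normalizer (A : Set G), n * a * n⁻¹ = v} = 155 ∧
    Set.ncard {v : G | ∃ n ∈ normalizer (A : Set G), n * b * n⁻¹ = v} = 868 := by
  obtain ⟨g, rfl⟩ := hj.ten_conj hA hcard hself
  obtain ⟨a, b, ha, hb, h1, h2⟩ := orbits_A0 j.toMM hj.full hj.card_V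
  have key : ∀ a : G, {v : G | ∃ n ∈ normalizer (cj g (A0 j.toMM) : Set G), n * (g * a * g⁻¹) * n⁻¹ = v} =
      MulAut.conj g '' {v | ∃ n ∈ NA j.toMM, n * a * n⁻¹ = v} := by
    intro a
    rw [norm_cj]
    ext v
    constructor
    · rintro ⟨_, ⟨n, hn, rfl⟩, rfl⟩
      exact ⟨_, ⟨n, hn, rfl⟩, by simp [mul_assoc]⟩
    · rintro ⟨_, ⟨n, hn, rfl⟩, rfl⟩
      exact ⟨_, conj_mem_cj hn, by simp [mul_assoc]⟩
  exact ⟨_, _, conj_mem_cj ha, conj_mem_cj hb,
    by rw [key, Set.ncard_image_of_injective _ (MulAut.conj g).injective, h1],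
    by rw [key, Set.ncard_image_of_injective _ (MulAut.conj g).injective, h2]⟩

end CfsgLib.J4T
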