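import Mathlib
import Cfsg.Agent.Lib.J4T.TenA

/-!
# The involutions of `M24` commuting with `uE 1`
-/

set_option autoImplicit false

namespace CfsgLib.J4T.Ten

open Cfsg CfsgLib.Golay CfsgLib.M24E Subgroup
open scoped Pointwise

theorem il_search : asearch 0x4a9112bc70986eca48ee2357515806 (okI (ap 0x6888b7aa90920cc2daf54826788dc1) (ap (uE 1)) (ap (uE 1)))
    (fun φ => or (not (isId fun x => φ (φ x))) (or (not (intw φ (ap (uE 1)) (ap (uE 1))))
      (or (isId φ) (frc (mk φ) (memL IL))))) = true := by decide +kernel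

theorem mem_IL {g : P24} (hg : g ∈ M24) (hc : g * pm (uE 1) = pm (uE 1) * g) (h2 : g * g = 1) (h1 : g ≠ 1) :
    ∃ q ∈ IL, Rp (ap q) g := by
  have hB : chkB 0x6888b7aa90920cc2daf54826788dc1 0x4a9112bc70986eca48ee2357515806 = true := by decide +kernel
  have hs := pm_rp (isM_uE (x := 1) (by norm_num))
  refine all_of_search (P := fun g => g * pm (uE 1) = pm (uE 1) * g)
    (Q := fun g => g * g = 1 → g ≠ 1 → ∃ q ∈ IL, Rp (ap q) g) hB
    (sound_okI (chkB_lt hB) hs hs fun _ _ h => h) ?_ il_search g hg hc h2 h1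
  intro g _ hP φ hφ h h2 h1
  rw [(hφ.mul hφ).isId_iff.2 h2, (hφ.intw_iff hs hs).2 hP, frc_eq] at h
  simp only [Bool.not_true, Bool.false_or, Bool.or_eq_true, memL_iff] at h
  exact ⟨_, h.resolve_left fun h => h1 (hφ.isId_iff.1 h), hφ.mk⟩

end CfsgLib.J4T.Ten
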