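import Mathlib
import Cfsg.Agent.Lib.J4T.TenA1
import Cfsg.Agent.Lib.J4T.TenA2

/-!
# Elementary abelian subgroups of `M24` with a large fixed space on the even cocode

If `H ≤ M24` is elementary abelian, contains `uE 1` and fixes a subspace of order `2 ^ d` of the even cocode,
`#H * 2 ^ d = 2 ^ 10`, then `H` fixes the octad `o0` pointwise.
-/

set_option autoImplicit false

namespace CfsgLib.J4T.Ten

open Cfsg CfsgLib.Golay CfsgLib.M24E Subgroup
open scoped Pointwise

/-- the main computation -/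
theorem fix_o0_of_large (H : Subgroup P24) (hH : ∀ g ∈ H, g ∈ M24 ∧ g * pm (uE 1) = pm (uE 1) * g ∧ g * g = 1)
    (X : Finset ℕ) (hlt : ∀ x ∈ X, x < 128) (hX : ∀ x ∈ X, ∀ y ∈ X, x ^^^ y ∈ X)
    (hf : ∀ g ∈ H, ∀ x ∈ X, Fx g (ofMask (encL BD x))) {d : ℕ} (hd : 2 ^ d ≤ X.card)
    (hc : Nat.card H * 2 ^ d = 1024) : ∀ g ∈ H, ∀ p ∈ ofMask o0, g p = p := by
  classical
  have hB : ∀ b ∈ BD, b < 2 ^ 24 := by decide
  have key : ∀ g ∈ H, g ≠ 1 → ∃ q ∈ IL, Rp (ap q) g ∧ ∀ x ∈ X, tb (fmask BD q) x = true := by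
    intro g hg h1
    obtain ⟨q, hq, r⟩ := mem_IL (hH g hg).1 (hH g hg).2.1 (hH g hg).2.2 h1
    exact ⟨q, hq, r, fun x hx => tb_fmask hB r (hlt x hx) (hf g hg x hx)⟩
  by_cases h6 : 6 ≤ d
  · intro g hg p hp
    by_cases h1 : g = 1
    · rw [h1]; rfl
    obtain ⟨q, hq, r, h2⟩ := key g hg h1
    have h3 := (allL_iff _ _).1 il_check2 q hq
    rw [Bool.or_eq_true, frc_eq] at h3
    rcases h3 with h3 | h3
    · exact (r.ptsFix_iff _).1 h3 p hp
    · rw [Nat.blt_eq, cntLT_eq_card] at h3
      have h4 : X ⊆ (Finset.range 128).filter fun k => tb (fmask BD q) k = true := fun x hx =>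
        Finset.mem_filter.2 ⟨Finset.mem_range.2 (hlt x hx), h2 x hx⟩
      have h5 := Finset.card_le_card h4
      have h7 : 2 ^ 6 ≤ 2 ^ d := Nat.pow_le_pow_right (by norm_num) h6
      omega
  exfalso
  let P : ℕ → Bool := fun a => decide (∀ x ∈ X, tb a x = true)
  have hP : ∀ a, P a = true → ∀ x ∈ X, tb a x = true := fun a h => of_decide_eq_true h
  have h1 : Nat.card H ≤ (IL.map (fmask BD)).countP P + 1 := by
    rw [List.countP_map]
    refine card_le_countP H IL _ fun g hg h1 => ?_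
    obtain ⟨q, hq, r, h2⟩ := key g hg h1
    exact ⟨q, hq, r.pm_eq, decide_eq_true h2⟩
  have c := il_check
  have len : (IL.map (fmask BD)).length = 575 := by rw [List.length_map, il_length]
  rw [frcL_eq, mapL_eq, ← len] at c
  simp only [Bool.and_eq_true] at c
  have e7 : X.filter (· < 128) = X := Finset.filter_true_of_mem hlt
  have e6 := card_double hX 6
  have e5 := card_double hX 5
  have e4 := card_double hX 4
  norm_num at e4 e5 e6
  rw [e7] at e6
  have hl : (IL.map (fmask BD)).countP P ≤ 575 := len ▸ List.countP_le_length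
  have h5 : d ≤ 5 := by omega
  interval_cases d
  · omega
  · have := dfs_spec X P hP _ _ _ c.2.2 ⟨by rw [e7]; simp; omega, trivial⟩
    omega
  · have := dfs_spec X P hP _ _ _ c.2.1 ⟨by simp; omega, by rw [e7]; simp; omega, trivial⟩
    omega
  · have := dfs_spec X P hP _ _ _ c.1.2 ⟨by simp; omega, by simp; omega, by rw [e7]; simp; omega, trivial⟩
    omega
  · have := dfs_spec X P hP _ _ _ c.1.1
      ⟨by simp; omega, by simp; omega, by simp; omega, by rw [e7]; simp; omega, trivial⟩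
    omega
  · have := dfs_spec X P hP _ _ _ c.1.1
      ⟨by simp; omega, by simp; omega, by simp; omega, by rw [e7]; simp; omega, trivial⟩
    omega

end CfsgLib.J4T.Ten
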