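import Mathlib
import Cfsg.Agent.Lib.J4T.TenA3

/-!
# The elementary abelian subgroups of order `2 ^ 10` of `M = V : M24` outside `V`
-/

set_option autoImplicit false

namespace CfsgLib.J4T.Ten

open Cfsg CfsgLib.Golay CfsgLib.M24E Subgroup
open scoped Pointwise

variable {G : Type*} [Group G]

/-! ### conjugate subgroups -/

/-- the conjugate of `A` by `g` -/
abbrev cj (g : G) (A : Subgroup G) : Subgroup G := A.map (MulAut.conj g).toMonoidHom

theorem mem_cj {g x : G} {A : Subgroup G} : x ∈ cj g A ↔ g⁻¹ * x * g ∈ A := by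
  constructor
  · rintro ⟨y, hy, rfl⟩
    simpa [mul_assoc] using hy
  · intro h
    exact ⟨_, h, by simp [mul_assoc]⟩

theorem conj_mem_cj {g x : G} {A : Subgroup G} (h : x ∈ A) : g * x * g⁻¹ ∈ cj g A := ⟨x, h, rfl⟩

theorem cj_cj (g h : G) (A : Subgroup G) : cj g (cj h A) = cj (g * h) A := by
  ext x; simp only [mem_cj, mul_inv_rev, mul_assoc]

theorem cj_one (A : Subgroup G) : cj 1 A = A := by
  ext x; simp only [mem_cj, inv_one, one_mul, mul_one]

theorem card_cj (g : G) (A : Subgroup G) : Nat.card (cj g A) = Nat.card A :=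
  card_map_of_injective (MulAut.conj g).injective

theorem cj_eq_iff {g : G} {A : Subgroup G} : cj g A = A ↔ g ∈ normalizer (A : Set G) := by
  rw [← inv_mem_iff, mem_set_normalizer_iff, SetLike.ext_iff]
  simp only [mem_cj, inv_inv, SetLike.mem_coe]
  exact forall_congr' fun _ => Iff.comm

theorem cj_le {g : G} {A M : Subgroup G} (h : A ≤ M) (hg : g ∈ M) : cj g A ≤ M := by
  rintro _ ⟨y, hy, rfl⟩
  exact mul_mem (mul_mem hg (h hy)) (inv_mem hg)

theorem conj_mem_norm {g x : G} {A : Subgroup G} (hg : g ∈ normalizer (A : Set G)) (hx : x ∈ A) :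
    g * x * g⁻¹ ∈ A := (mem_set_normalizer_iff.1 hg x).1 hx

/-- elementary abelian 2-subgroups -/
def El (A : Subgroup G) : Prop := ∀ x ∈ A, x * x = 1

theorem El.comm {A : Subgroup G} (h : El A) {x y : G} (hx : x ∈ A) (hy : y ∈ A) : x * y = y * x := by
  have h1 := inv_eq_of_mul_eq_one_right (h _ (mul_mem hx hy))
  rw [mul_inv_rev, inv_eq_of_mul_eq_one_right (h x hx), inv_eq_of_mul_eq_one_right (h y hy)] at h1
  exact h1.symm

theorem El.cj {A : Subgroup G} (h : El A) (g : G) : El (cj g A) := by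
  rintro _ ⟨y, hy, rfl⟩
  show g * y * g⁻¹ * (g * y * g⁻¹) = 1
  rw [conj_mul, h y hy, mul_one, mul_inv_cancel]

theorem el_iff {A : Subgroup G} : IsElementaryAbelian 2 A ↔ El A :=
  ⟨fun h x hx => by rw [← pow_two]; exact h.2 x hx, fun h =>
    ⟨⟨⟨fun x y => Subtype.ext (h.comm x.2 y.2)⟩⟩, fun x hx => by rw [pow_two]; exact h x hx⟩⟩

theorem cent_cj {A : Subgroup G} (h : centralizer (A : Set G) = A) (g : G) :
    centralizer (cj g A : Set G) = cj g A := by
  ext x
  rw [mem_cj]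
  conv_rhs => rw [← h]
  simp only [mem_centralizer_iff, SetLike.mem_coe]
  constructor
  · intro h1 y hy
    have := h1 _ (conj_mem_cj (g := g) hy)
    calc y * (g⁻¹ * x * g) = g⁻¹ * (g * y * g⁻¹ * x) * g := by group
      _ = _ := by rw [this]; group
  · rintro h1 _ ⟨y, hy, rfl⟩
    show g * y * g⁻¹ * x = x * (g * y * g⁻¹)
    calc g * y * g⁻¹ * x = g * (y * (g⁻¹ * x * g)) * g⁻¹ := by group
      _ = _ := by rw [h1 y hy]; group

/-! ### calculus in `M` -/

theorem even_smul (g : P24) {a : Finset GolayPt} (ha : Even a.card) : Even (g • a).card := by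
  rwa [Finset.card_smul_finset]

theorem fix_of_duads {g : P24} {o : Finset GolayPt} (h3 : 2 < o.card)
    (h : ∀ d ⊆ o, d.card = 2 → Fx g d) : ∀ p ∈ o, g p = p := by
  have key : ∀ p ∈ o, ∀ q ∈ o, p ≠ q → g p = p ∨ g p = q := by
    intro p hp q hq hpq
    have h1 := h {p, q} (by simp [Finset.insert_subset_iff, hp, hq]) (Finset.card_pair hpq)
    have h2 := card_symmDiff_add ({p, q} : Finset GolayPt) (g • {p, q})
    rw [Finset.card_smul_finset, Finset.card_pair hpq] at h2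
    have h4 := eq_empty_of_card_lt h1 (by omega)
    rw [← Finset.bot_eq_empty, symmDiff_eq_bot] at h4
    have h5 : g p ∈ g • ({p, q} : Finset GolayPt) := (smul_mem_smul' g).2 (by simp)
    rw [← h4] at h5
    simpa using h5
  intro p hp
  obtain ⟨q, hq, r, hr, hqr⟩ := Finset.one_lt_card.1 (show 1 < (o.erase p).card by
    rw [Finset.card_erase_of_mem hp]; omega)
  rw [Finset.mem_erase] at hq hr
  rcases key p hp q hq.2 hq.1.symm with h1 | h1
  · exact h1
  rcases key p hp r hr.2 hr.1.symm with h2 | h2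
  · exact h2
  · exact absurd (h1.symm.trans h2) hqr

theorem smul_of_subset {g : P24} {o a : Finset GolayPt} (h : ∀ p ∈ o, g p = p) (ha : a ⊆ o) : g • a = a := by
  refine Finset.eq_of_subset_of_card_le (fun p hp => ?_) (by rw [Finset.card_smul_finset])
  obtain ⟨q, hq, rfl⟩ := Finset.mem_smul_finset.1 hp
  show g q ∈ a
  rw [h q (ha hq)]; exact hq

section
variable {z : G} (m : MM z) {a b : Finset GolayPt}

/-- the normaliser of `V` -/
abbrev NV : Subgroup G := normalizer (m.V : Set G)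

theorem c_empty : m.c ∅ = 1 := (m.c_eq_one ∅ (by simp)).2 empty_mem_codeSets

theorem c_sq (ha : Even a.card) : m.c a * m.c a = 1 := by
  rw [← m.c_mul a a ha ha, symmDiff_self]; exact c_empty m

theorem c_comm (ha : Even a.card) (hb : Even b.card) : m.c a * m.c b = m.c b * m.c a := by
  rw [← m.c_mul a b ha hb, ← m.c_mul b a hb ha, symmDiff_comm]

theorem c_inv (ha : Even a.card) : (m.c a)⁻¹ = m.c a := inv_eq_of_mul_eq_one_right (c_sq m ha)

theorem c_eq_iff (ha : Even a.card) (hb : Even b.card) : m.c a = m.c b ↔ symmDiff a b ∈ codeSets := by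
  rw [← m.c_eq_one _ (even_symmDiff ha hb), m.c_mul a b ha hb, mul_eq_one_iff_eq_inv, c_inv m hb]

theorem c_mem (ha : Even a.card) : m.c a ∈ m.V := (m.mem_V _).2 ⟨a, ha, rfl⟩

theorem el_V : El m.V := fun x hx => by
  obtain ⟨a, ha, rfl⟩ := (m.mem_V x).1 hx
  exact c_sq m ha

theorem κ_c (g : M24) (ha : Even a.card) : m.κ g * m.c a = m.c ((g : P24) • a) * m.κ g := by
  rw [← m.conj g a ha, inv_mul_cancel_right]

theorem mul_law (ha : Even a.card) (hb : Even b.card) (g h : M24) :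
    m.c a * m.κ g * (m.c b * m.κ h) = m.c (symmDiff a ((g : P24) • b)) * m.κ (g * h) := by
  rw [m.c_mul _ _ ha (even_smul _ hb), map_mul, mul_assoc, ← mul_assoc (m.κ g), κ_c m g hb]
  simp only [mul_assoc]

theorem conj_c (ha : Even a.card) (hb : Even b.card) (g : M24) :
    m.c a * m.κ g * m.c b * (m.c a * m.κ g)⁻¹ = m.c ((g : P24) • b) := by
  have : m.c a * m.κ g * m.c b * (m.c a * m.κ g)⁻¹ = m.c a * (m.κ g * m.c b * (m.κ g)⁻¹) * (m.c a)⁻¹ := by group
  rw [this, m.conj g b hb, c_comm m ha (even_smul _ hb), mul_inv_cancel_right]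

theorem mem_NV (ha : Even a.card) (g : M24) : m.c a * m.κ g ∈ NV m := (m.mem_M _).2 ⟨a, ha, g, rfl⟩

theorem κ_mem (g : M24) : m.κ g ∈ NV m := by
  have := mem_NV m (a := ∅) (by simp) g
  rwa [c_empty, one_mul] at this

theorem c_mem_NV (ha : Even a.card) : m.c a ∈ NV m := le_normalizer (c_mem m ha)

theorem comm_c_iff (ha : Even a.card) (hb : Even b.card) (g : M24) :
    m.c a * m.κ g * m.c b = m.c b * (m.c a * m.κ g) ↔ Fx g b := by
  rw [Fx, ← c_eq_iff m hb (even_smul _ hb), ← conj_c m ha hb g, eq_comm (a := m.c b), mul_inv_eq_iff_eq_mul]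

theorem κ_eq_of_eq (ha : Even a.card) (hb : Even b.card) {g h : M24} (e : m.c a * m.κ g = m.c b * m.κ h) :
    g = h := by
  have h1 : ∀ p ∈ (Finset.univ : Finset GolayPt), ((h⁻¹ * g : M24) : P24) p = p := by
    refine fix_of_duads (by rw [Finset.card_univ, card_golayPt]; norm_num) fun d _ hd => ?_
    have hd' : Even d.card := by rw [hd]; norm_num
    have h2 := conj_c m ha hd' g
    rw [e, conj_c m hb hd', c_eq_iff m (even_smul _ hd') (even_smul _ hd')] at h2
    have h3 := smul_mem_codeSets (inv_mem h.2) h2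
    rwa [smul_symmDiff', inv_smul_smul, ← mul_smul] at h3
  rw [eq_comm, ← inv_mul_eq_one]
  exact Subtype.ext (Equiv.ext fun p => h1 p (Finset.mem_univ p))

theorem sq_iff (ha : Even a.card) {g : M24} (h : m.c a * m.κ g * (m.c a * m.κ g) = 1) : g * g = 1 ∧ Fx g a := by
  rw [mul_law m ha ha] at h
  have h1 := even_symmDiff ha (even_smul (g : P24) ha)
  have h2 : g * g = 1 := κ_eq_of_eq m h1 (b := ∅) (by simp) (by rw [h, c_empty, map_one, one_mul])
  rw [h2, map_one, mul_one] at h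
  exact ⟨h2, (m.c_eq_one _ h1).1 h⟩

open _root_.Classical in
/-- the permutation induced by an element of `M` -/
noncomputable def ψ (x : G) : M24 := if h : ∃ g : M24, ∃ a, Even a.card ∧ x = m.c a * m.κ g then h.choose else 1

theorem ψ_eq (ha : Even a.card) (g : M24) : ψ m (m.c a * m.κ g) = g := by
  have h : ∃ g' : M24, ∃ a', Even a'.card ∧ m.c a * m.κ g = m.c a' * m.κ g' := ⟨g, a, ha, rfl⟩
  rw [ψ, dif_pos h]
  obtain ⟨a', ha', e⟩ := h.choose_spec
  exact (κ_eq_of_eq m ha ha' e).symm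

/-- the map `A → M24` for `A ≤ M` -/
noncomputable def ψA {A : Subgroup G} (hA : A ≤ NV m) : A →* P24 :=
  MonoidHom.mk' (fun x => (ψ m x : P24)) fun x y => by
    obtain ⟨a, ha, g, e1⟩ := (m.mem_M _).1 (hA x.2)
    obtain ⟨b, hb, h, e2⟩ := (m.mem_M _).1 (hA y.2)
    rw [coe_mul, e1, e2, mul_law m ha hb, ψ_eq m (even_symmDiff ha (even_smul _ hb)), ψ_eq m ha, ψ_eq m hb, coe_mul]

theorem mem_range {A : Subgroup G} (hA : A ≤ NV m) {g : P24} :
    g ∈ (ψA m hA).range ↔ ∃ a, Even a.card ∧ ∃ h : M24, (h : P24) = g ∧ m.c a * m.κ h ∈ A := by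
  constructor
  · rintro ⟨x, rfl⟩
    obtain ⟨a, ha, g, e1⟩ := (m.mem_M _).1 (hA x.2)
    refine ⟨a, ha, g, ?_, e1 ▸ x.2⟩
    show _ = (ψ m x : P24)
    rw [e1, ψ_eq m ha]
  · rintro ⟨a, ha, h, rfl, h1⟩
    exact ⟨⟨_, h1⟩, congrArg Subtype.val (ψ_eq m ha h)⟩

theorem card_split {A : Subgroup G} (hA : A ≤ NV m) :
    Nat.card A = Nat.card (ψA m hA).range * Nat.card (m.V ⊓ A : Subgroup G) := by
  have h1 : (ψA m hA).ker = m.V.subgroupOf A := by
    ext x
    obtain ⟨a, ha, g, e1⟩ := (m.mem_M _).1 (hA x.2)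
    rw [MonoidHom.mem_ker, mem_subgroupOf]
    show (ψ m x : P24) = 1 ↔ _
    rw [e1, ψ_eq m ha, OneMemClass.coe_eq_one]
    constructor
    · rintro rfl
      rw [map_one, mul_one]; exact c_mem m ha
    · intro h
      obtain ⟨b, hb, e2⟩ := (m.mem_V _).1 h
      exact κ_eq_of_eq m ha hb (by rw [e2, map_one, mul_one])
  rw [← card_mul_index (ψA m hA).ker, index_ker, h1, mul_comm, ← inf_subgroupOf_right,
    Nat.card_congr (subgroupOfEquivOfLe inf_le_right).toEquiv]

open _root_.Classical in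
theorem card_inf_le {A : Subgroup G} (hE : El A) (ha : Even a.card) {s : M24} (hs : m.c a * m.κ s ∈ A)
    (F : ℕ → Finset GolayPt) (n : ℕ) (h : ∀ b, Even b.card → Fx s b → ∃ x < n, symmDiff b (F x) ∈ codeSets) :
    Nat.card (m.V ⊓ A : Subgroup G) ≤ ((Finset.range n).filter fun x => m.c (F x) ∈ A).card := by
  have h1 : ((m.V ⊓ A : Subgroup G) : Set G) ⊆
      ↑(((Finset.range n).filter fun x => m.c (F x) ∈ A).image fun x => m.c (F x)) := by
    rintro y ⟨hy, hy'⟩
    obtain ⟨b, hb, rfl⟩ := (m.mem_V _).1 hy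
    obtain ⟨x, hx, e⟩ := h b hb ((comm_c_iff m ha hb s).1 (hE.comm hs hy'))
    rw [← c_eq_iff m hb (even_of_code hb e)] at e
    rw [Finset.coe_image]
    exact ⟨x, Finset.mem_coe.2 (Finset.mem_filter.2 ⟨Finset.mem_range.2 hx, e ▸ hy'⟩), e.symm⟩
  have h2 := Set.ncard_le_ncard h1 (Finset.finite_toSet _)
  rw [Set.ncard_coe_finset] at h2
  exact (Nat.card_coe_set_eq _).le.trans (h2.trans Finset.card_image_le)

/-! ### the group `A0` -/

/-- element number `x` of the pointwise stabiliser of `o0` -/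
noncomputable def U (x : ℕ) : M24 := ⟨pm (uE (x % 16)), pm_mem (isM_uE (Nat.mod_lt _ (by norm_num)))⟩

theorem U_coe {x : ℕ} (hx : x < 16) : (U x : P24) = pm (uE x) := by
  show pm (uE (x % 16)) = _
  rw [Nat.mod_eq_of_lt hx]

theorem U_mul (x y : ℕ) : U x * U y = U (x ^^^ y) := Subtype.ext (by
  show pm (uE (x % 16)) * pm (uE (y % 16)) = pm (uE ((x ^^^ y) % 2 ^ 4))
  rw [pm_uE_mul (Nat.mod_lt _ (by norm_num)) (Nat.mod_lt _ (by norm_num)), Nat.xor_mod_two_pow])

theorem U_zero : U 0 = 1 := Subtype.ext pm_uE_zero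

theorem U_fix (x : ℕ) : ∀ p ∈ ofMask o0, (U x : P24) p = p := uE_fix (Nat.mod_lt _ (by norm_num))

theorem U_rp {x : ℕ} (hx : x < 16) : Rp (ap (uE x)) (U x) := by
  rw [U_coe hx]; exact pm_rp (isM_uE hx)

theorem U_inj {x y : ℕ} (hx : x < 16) (hy : y < 16) (e : U x = U y) : x = y :=
  pm_uE_inj hx hy (by rw [← U_coe hx, ← U_coe hy, e])

theorem exists_U {g : M24} (h : ∀ p ∈ ofMask o0, (g : P24) p = p) : ∃ x < 16, g = U x := by
  obtain ⟨x, hx, e⟩ := fix_o0' g.2 h
  exact ⟨x, hx, Subtype.ext (e.trans (U_coe hx).symm)⟩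

theorem even_encL {l : List ℕ} (hl : ∀ b ∈ l, Even (ofMask b).card) (x : ℕ) : Even (ofMask (encL l x)).card :=
  encL_induction (P := fun b => Even (ofMask b).card) (by simp [ofMask_zero])
    (fun _ _ h1 h2 => by rw [ofMask_xor]; exact even_symmDiff h1 h2) l hl x

/-- a basis of the even subsets of `o0` modulo `o0` -/
def B6 : List ℕ := [2148, 3077, 85, 2129, 1136, 2100]

/-- the even subsets of `o0` -/
noncomputable def e6 (x : ℕ) : Finset GolayPt := ofMask (encL B6 x)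

/-- the fixed space of `uE 1` -/
noncomputable def e7 (x : ℕ) : Finset GolayPt := ofMask (encL B7 x)

theorem even_e6 (x : ℕ) : Even (e6 x).card := even_encL (by decide +kernel) x

theorem even_e7 (x : ℕ) : Even (e7 x).card := even_encL (by decide +kernel) x

theorem e6_xor (x y : ℕ) : e6 (x ^^^ y) = symmDiff (e6 x) (e6 y) := by rw [e6, encL_xor, ofMask_xor]; rfl

theorem e7_xor (x y : ℕ) : e7 (x ^^^ y) = symmDiff (e7 x) (e7 y) := by rw [e7, encL_xor, ofMask_xor]; rfl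

theorem e6_subset (x : ℕ) : e6 x ⊆ ofMask o0 :=
  encL_induction (P := fun b => ofMask b ⊆ ofMask o0) (by simp [ofMask_zero])
    (fun _ _ h1 h2 => by
      rw [ofMask_xor]
      exact Finset.symmDiff_subset_union.trans (Finset.union_subset h1 h2)) B6 (by decide +kernel) x

theorem U_e6 (x y : ℕ) : (U x : P24) • e6 y = e6 y := smul_of_subset (U_fix x) (e6_subset y)

theorem e7_eq {w y : ℕ} (hw : w < 64) (hy : y < 16) : e7 w = e6 (64 * y + w) :=
  congrArg ofMask (beq_iff'.1 (of_allLT (of_allLT (f := fun w => allLT 16 fun y =>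
    Nat.beq (encL B7 w) (encL B6 (Nat.add (Nat.mul 64 y) w))) (by decide +kernel) hw) hy))

theorem not_fx {w y : ℕ} (hw : w < 128) (hw' : 64 ≤ w) (hy : y < 16) (h : Fx (U y) (e7 w)) : y < 2 := by
  have lt : encL B7 w < 2 ^ 24 := encL_lt (by decide) w
  rw [Fx, e7, ← (U_rp hy).ofMask_img, ← ofMask_xor, ofMask_mem_iff (xor_lt lt ((U_rp hy).img_lt _))] at h
  have h1 := of_allLT (of_allLT (f := fun w => allLT 16 fun y => or (Nat.blt w 64) (or (Nat.blt y 2)
    (not (frc (encL B7 w) fun a => frc (Nat.xor a (img (ap (uE y)) a)) isCode)))) (by decide +kernel) hw) hy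
  simp only [frc_eq, Bool.or_eq_true, Nat.blt_eq] at h1
  rcases h1 with h1 | h1 | h1
  · omega
  · exact h1
  · rw [show isCode (Nat.xor (encL B7 w) (img (ap (uE y)) (encL B7 w))) = true from h] at h1
    cases h1

theorem fx_cover (hb : Even b.card) (h : Fx (U 1) b) : ∃ w < 128, m.c b = m.c (e7 w) := by
  rw [U_coe (by norm_num)] at h
  obtain ⟨w, hw, e⟩ := fix_cover chk_B7 (isM_uE (by norm_num)) hb h
  exact ⟨w, hw, (c_eq_iff m hb (even_e7 w)).2 e⟩

/-- coordinates on `A0` -/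
noncomputable def T (x : ℕ) : G := m.c (e6 x) * m.κ (U (x / 64))

theorem T_xor (x y : ℕ) : T m (x ^^^ y) = T m x * T m y := by
  rw [T, T, T, mul_law m (even_e6 x) (even_e6 y), U_e6, U_mul, e6_xor]
  congr 3
  exact Nat.xor_div_two_pow (n := 6)

theorem T_zero : T m 0 = 1 := by
  have := T_xor m 0 0
  rwa [Nat.xor_self, left_eq_mul] at this

theorem T_sq (x : ℕ) : T m x * T m x = 1 := by rw [← T_xor, Nat.xor_self, T_zero]

theorem T_low {x : ℕ} (hx : x < 64) : T m x = m.c (e6 x) := by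
  rw [T, Nat.div_eq_of_lt hx, U_zero, map_one, mul_one]

theorem T_eq {w y : ℕ} (hw : w < 64) (hy : y < 16) : T m (64 * y + w) = m.c (e7 w) * m.κ (U y) := by
  rw [T, e7_eq hw hy, show (64 * y + w) / 64 = y by omega]

theorem T_eq_one {x : ℕ} (hx : x < 1024) (h : T m x = 1) : x = 0 := by
  have h1 : U (x / 64) = U 0 :=
    κ_eq_of_eq m (even_e6 x) (b := ∅) (by simp) (by rw [c_empty, U_zero, map_one, one_mul]; exact h)
  have h2 : x < 64 := by have := U_inj (by omega) (by norm_num) h1; omega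
  rw [T_low m h2, m.c_eq_one _ (even_e6 x), e6, ofMask_mem_iff (encL_lt (by decide) x)] at h
  have h3 := of_allLT (f := fun x => or (Nat.beq x 0) (not (isCode (encL B6 x)))) (by decide +kernel) h2
  rw [h] at h3
  simpa [beq_iff'] using h3

theorem T_inj {x y : ℕ} (hx : x < 1024) (hy : y < 1024) (h : T m x = T m y) : x = y :=
  Nat.xor_eq_zero_iff.1 (T_eq_one m (xor_lt (n := 10) hx hy) (by rw [T_xor, h, T_sq]))

/-- the group `2 ^ 10` -/
def A0 : Subgroup G where
  carrier := {g | ∃ x < 1024, g = T m x}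
  mul_mem' := by
    rintro _ _ ⟨x, hx, rfl⟩ ⟨y, hy, rfl⟩
    exact ⟨_, xor_lt (n := 10) hx hy, (T_xor m x y).symm⟩
  one_mem' := ⟨0, by norm_num, (T_zero m).symm⟩
  inv_mem' := by
    rintro _ ⟨x, hx, rfl⟩
    exact ⟨x, hx, inv_eq_of_mul_eq_one_right (T_sq m x)⟩

theorem mem_A0 {g : G} : g ∈ A0 m ↔ ∃ x < 1024, g = T m x := Iff.rfl

theorem T_mem {x : ℕ} (hx : x < 1024) : T m x ∈ A0 m := ⟨x, hx, rfl⟩

theorem el_A0 : El (A0 m) := by
  rintro _ ⟨x, -, rfl⟩; exact T_sq m x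

theorem card_A0 : Nat.card (A0 m) = 1024 := by
  let f : Fin 1024 → A0 m := fun x => ⟨T m x, T_mem m x.2⟩
  have hf : Function.Bijective f :=
    ⟨fun x y e => Fin.ext (T_inj m x.2 y.2 (congrArg Subtype.val e)), by
      rintro ⟨_, x, hx, rfl⟩; exact ⟨⟨x, hx⟩, rfl⟩⟩
  rw [← Nat.card_congr (Equiv.ofBijective f hf), Nat.card_eq_fintype_card, Fintype.card_fin]

theorem A0_le : A0 m ≤ NV m := by
  rintro _ ⟨x, -, rfl⟩; exact mem_NV m (even_e6 x) _

/-! ### classification inside `M` -/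

theorem bar_fix {A : Subgroup G} (hA : A ≤ NV m) (hE : El A) (hc : Nat.card A = 1024) (ha : Even a.card)
    (hs : m.c a * m.κ (U 1) ∈ A) : (∀ b, Even b.card → ∀ h : M24, m.c b * m.κ h ∈ A → ∃ y < 16, h = U y) ∧
      8 ≤ Nat.card (ψA m hA).range := by
  classical
  have h1 := card_split m hA
  have h2 := card_inf_le m hE ha hs (fun x => ofMask (encL BD x)) 128 fun b hb h =>
    fix_cover chk_BD (isM_uE (by norm_num)) hb (by rwa [U_coe (by norm_num)] at h)
  have ev : ∀ x, Even (ofMask (encL BD x)).card := even_encL (by decide +kernel)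
  obtain ⟨d, -, hd⟩ := (Nat.dvd_prime_pow Nat.prime_two (m := 10)).1
    (show Nat.card (m.V ⊓ A : Subgroup G) ∣ 2 ^ 10 from ⟨_, by rw [mul_comm, ← h1, hc]; norm_num⟩)
  have hs' : (U 1 : P24) ∈ (ψA m hA).range := (mem_range m hA).2 ⟨a, ha, _, rfl, hs⟩
  have hE' : El (ψA m hA).range := by
    rintro _ ⟨x, rfl⟩
    rw [← map_mul, show x * x = 1 from Subtype.ext (hE x x.2), map_one]
  refine ⟨fun b hb h hh => exists_U ?_, ?_⟩
  · refine fix_o0_of_large (ψA m hA).range (fun g hg => ⟨?_, ?_, hE' g hg⟩) _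
      (fun x hx => Finset.mem_range.1 (Finset.mem_filter.1 hx).1) ?_ ?_ (hd ▸ h2) (by rw [← hd, ← h1, hc]) _
      ((mem_range m hA).2 ⟨b, hb, h, rfl, hh⟩)
    · obtain ⟨_, -, h, rfl, -⟩ := (mem_range m hA).1 hg
      exact h.2
    · rw [← U_coe (by norm_num)]; exact hE'.comm hg hs'
    · intro x hx y hy
      rw [Finset.mem_filter, Finset.mem_range] at hx hy ⊢
      refine ⟨xor_lt (n := 7) hx.1 hy.1, ?_⟩
      rw [encL_xor, ofMask_xor, m.c_mul _ _ (ev x) (ev y)]
      exact mul_mem hx.2 hy.2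
    · intro g hg x hx
      obtain ⟨b, hb, h, rfl, h3⟩ := (mem_range m hA).1 hg
      exact (comm_c_iff m hb (ev x) h).1 (hE.comm h3 (Finset.mem_filter.1 hx).2)
  · have h3 := h2.trans (Finset.card_filter_le _ _)
    rw [Finset.card_range] at h3
    by_contra h4
    have h5 := Nat.mul_le_mul (show Nat.card (ψA m hA).range ≤ 7 by omega) h3
    omega

theorem eq_A0 {A : Subgroup G} (hA : A ≤ NV m) (hE : El A) (hc : Nat.card A = 1024) {x0 : ℕ} (hx0 : x0 < 64)
    (hs : m.c (e7 x0) * m.κ (U 1) ∈ A) : A = A0 m := by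
  obtain ⟨h1, h2⟩ := bar_fix m hA hE hc (even_e7 x0) hs
  have c1 : ∀ w < 128, 64 ≤ w → m.c (e7 w) ∉ A := by
    intro w hw hw' h
    have h3 : ((ψA m hA).range : Set P24) ⊆ {(U 0 : P24), (U 1 : P24)} := by
      intro g hg
      obtain ⟨b, hb, h', rfl, h3⟩ := (mem_range m hA).1 hg
      obtain ⟨y, hy, rfl⟩ := h1 b hb h' h3
      have := not_fx hw hw' hy ((comm_c_iff m hb (even_e7 w) _).1 (hE.comm h3 h))
      interval_cases y <;> simp
    have h4 := (Set.ncard_le_ncard h3 (Set.toFinite _)).trans (Set.ncard_insert_le _ _)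
    rw [Set.ncard_singleton, ← Nat.card_coe_set_eq] at h4
    exact absurd (h2.trans h4) (by norm_num)
  have hf : ∀ y, (U y : P24) • e7 x0 = e7 x0 := fun y => by rw [e7_eq hx0 (y := 0) (by norm_num), U_e6]
  have : Finite (A0 m) := Nat.finite_of_card_ne_zero (by rw [card_A0]; norm_num)
  refine eq_of_le_of_card_ge (fun x hx => ?_) (by rw [hc, card_A0])
  obtain ⟨b, hb, h, rfl⟩ := (m.mem_M _).1 (hA hx)
  obtain ⟨y, hy, rfl⟩ := h1 b hb h hx
  have h3 := hE.comm hx hs
  rw [mul_law m hb (even_e7 x0), mul_law m (even_e7 x0) hb, hf, U_mul, U_mul, Nat.xor_comm, mul_left_inj,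
    m.c_mul _ _ hb (even_e7 x0), m.c_mul _ _ (even_e7 x0) (even_smul _ hb), c_comm m hb (even_e7 x0), mul_right_inj,
    c_eq_iff m hb (even_smul _ hb)] at h3
  obtain ⟨w, hw, e⟩ := fx_cover m hb h3
  rw [e] at hx ⊢
  by_cases hw' : w < 64
  · exact ⟨_, by omega, (T_eq m hw' hy).symm⟩
  exfalso
  have h4 := not_fx hw (by omega) hy (sq_iff m (even_e7 w) (hE _ hx)).2
  interval_cases y
  · rw [U_zero, map_one, mul_one] at hx
    exact c1 w hw (by omega) hx
  · have h5 := mul_mem hx hs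
    rw [mul_law m (even_e7 w) (even_e7 x0), hf, U_mul, Nat.xor_self, U_zero, map_one, mul_one, ← e7_xor] at h5
    refine c1 _ (xor_lt (n := 7) hw (by omega)) ?_ h5
    by_contra h6
    have h7 := xor_lt (n := 6) (not_le.1 h6) hx0
    rw [Nat.xor_assoc, Nat.xor_self, Nat.xor_zero] at h7
    exact hw' h7

theorem even_3 : Even (ofMask 3).card := by decide +kernel

theorem conj_v (ha : Even a.card) (g : M24) : m.c (ofMask 3) * (m.c a * m.κ g) * (m.c (ofMask 3))⁻¹ =
    m.c a * m.c (symmDiff (ofMask 3) ((g : P24) • ofMask 3)) * m.κ g := by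
  rw [c_inv m even_3, mul_assoc, mul_assoc, κ_c m _ even_3, ← mul_assoc, ← mul_assoc, c_comm m even_3 ha,
    mul_assoc (m.c a), ← m.c_mul _ _ even_3 (even_smul _ even_3)]

theorem e7_64 : symmDiff (ofMask 3) ((U 1 : P24) • ofMask 3) = e7 64 := by
  rw [← (U_rp (by norm_num)).ofMask_img, ← ofMask_xor]
  exact congrArg ofMask (by decide +kernel)

theorem eq_A0_or {A : Subgroup G} (hA : A ≤ NV m) (hE : El A) (hc : Nat.card A = 1024) (ha : Even a.card)
    (hs : m.c a * m.κ (U 1) ∈ A) : A = A0 m ∨ cj (m.c (ofMask 3)) A = A0 m := by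
  obtain ⟨w, hw, e⟩ := fx_cover m ha (sq_iff m ha (hE _ hs)).2
  rw [e] at hs
  by_cases hw' : w < 64
  · exact Or.inl (eq_A0 m hA hE hc hw' hs)
  refine Or.inr (eq_A0 m (cj_le hA (c_mem_NV m even_3)) (hE.cj _) (by rw [card_cj, hc]) (x0 := w ^^^ 64) ?_ ?_)
  · exact (by decide : ∀ w < 128, ¬ w < 64 → w ^^^ 64 < 64) w hw hw'
  · have h1 := conj_mem_cj (g := m.c (ofMask 3)) hs
    rwa [conj_v m (even_e7 w), e7_64, ← m.c_mul _ _ (even_e7 w) (even_e7 64), ← e7_xor] at h1

theorem exists_cj_of_U {A : Subgroup G} (hA : A ≤ NV m) (hE : El A) (hc : Nat.card A = 1024) (ha : Even a.card)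
    (hs : m.c a * m.κ (U 1) ∈ A) : ∃ n ∈ NV m, cj n A = A0 m := by
  rcases eq_A0_or m hA hE hc ha hs with h | h
  exacts [⟨1, one_mem _, by rw [cj_one, h]⟩, ⟨_, c_mem_NV m even_3, h⟩]

theorem conj_κ (ha : Even a.card) (r g : M24) :
    m.κ r * (m.c a * m.κ g) * (m.κ r)⁻¹ = m.c ((r : P24) • a) * m.κ (r * g * r⁻¹) := by
  rw [← m.conj r a ha, map_mul, map_mul, map_inv]; group

theorem card_dvd_of_free (H : Subgroup P24) (h : ∀ g ∈ H, g ≠ 1 → ∀ p, g p ≠ p) : Nat.card H ∣ 24 := by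
  have h1 : ∀ p : GolayPt, MulAction.stabilizer H p = ⊥ := fun p => by
    rw [eq_bot_iff]
    intro g hg
    by_contra h2
    exact h g g.2 (fun e => h2 (mem_bot.2 (Subtype.ext e))) p hg
  have h2 := Nat.card_congr (MulAction.selfEquivOrbitsQuotientProd h1)
  rw [Nat.card_prod, Nat.card_eq_fintype_card (α := GolayPt), card_golayPt] at h2
  exact Dvd.intro_left _ h2.symm

/-- the elementary abelian subgroups of order `2 ^ 10` of `M` outside `V` are conjugate in `M` -/
theorem class_M {A : Subgroup G} (hA : A ≤ NV m) (hE : El A) (hc : Nat.card A = 1024) (hV : ¬ A ≤ m.V) :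
    ∃ n ∈ NV m, cj n A = A0 m := by
  classical
  by_cases h : ∃ a, Even a.card ∧ ∃ g : M24, m.c a * m.κ g ∈ A ∧ g ≠ 1 ∧ fixS (g : P24) ≠ ∅
  · obtain ⟨a, ha, g, hg, h1, h2⟩ := h
    obtain ⟨r, hr, e⟩ := conj_uE g.2 (congrArg Subtype.val (sq_iff m ha (hE _ hg)).1)
      (fun e => h1 (Subtype.ext e)) h2
    have h3 := conj_mem_cj (g := m.κ ⟨r, hr⟩) hg
    rw [conj_κ m ha, show ⟨r, hr⟩ * g * ⟨r, hr⟩⁻¹ = U 1 from Subtype.ext (e.trans (U_coe (by norm_num)).symm)] at h3
    obtain ⟨n, hn, e1⟩ := exists_cj_of_U m (cj_le hA (κ_mem m _)) (hE.cj _) (by rw [card_cj, hc]) (even_smul _ ha) h3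
    exact ⟨_, mul_mem hn (κ_mem m _), by rw [← cj_cj, e1]⟩
  exfalso
  have h1 : Nat.card (ψA m hA).range ∣ 24 := by
    refine card_dvd_of_free _ fun g hg h1 => ?_
    obtain ⟨a, ha, g, rfl, h2⟩ := (mem_range m hA).1 hg
    rw [← fixS_eq_empty]
    by_contra h3
    exact h ⟨a, ha, g, h2, fun e => h1 (congrArg Subtype.val e), h3⟩
  obtain ⟨x, hx, hx'⟩ := SetLike.not_le_iff_exists.1 hV
  obtain ⟨a, ha, g, rfl⟩ := (m.mem_M _).1 (hA hx)
  have g1 : g ≠ 1 := by
    rintro rfl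
    rw [map_one, mul_one] at hx'
    exact hx' (c_mem m ha)
  have : Fact (Nat.Prime 2) := ⟨Nat.prime_two⟩
  obtain ⟨r, hr, e⟩ := conj_q2b g.2 (orderOf_eq_prime
    (by rw [pow_two]; exact congrArg Subtype.val (sq_iff m ha (hE _ hx)).1) fun e => g1 (Subtype.ext e))
    (fixS_eq_empty.1 (by_contra fun h3 => h ⟨a, ha, g, hx, g1, h3⟩))
  have h2 := card_inf_le m hE ha hx (fun x => r • ofMask (encL BB x)) 64 fun b hb h3 => by
    have h4 := smul_mem_codeSets (inv_mem hr) h3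
    rw [smul_symmDiff', ← e, mul_smul, mul_smul, inv_smul_smul] at h4
    obtain ⟨x, hx, h5⟩ := fix_cover chk_BB isM_q2b (even_smul _ hb) h4
    have h6 := smul_mem_codeSets hr h5
    rw [smul_symmDiff', smul_inv_smul] at h6
    exact ⟨x, hx, h6⟩
  have h3 := h2.trans (Finset.card_filter_le _ _)
  rw [Finset.card_range] at h3
  have h4 := card_split m hA
  have h5 := Nat.dvd_gcd h1 (Dvd.intro _ (h4.symm.trans hc))
  have h6 := Nat.mul_le_mul (Nat.le_of_dvd (by norm_num) h5) h3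
  rw [← h4, hc] at h6
  norm_num at h6

/-- `A0` is self-centralising -/
theorem cent_A0 (hf : m.Full) : centralizer (A0 m : Set G) = A0 m := by
  refine le_antisymm (fun x hx => ?_) fun x hx y hy => (el_A0 m).comm hy hx
  have sub : ∀ d ⊆ ofMask o0, d.card = 2 → m.c d ∈ A0 m := by
    intro d hd h2
    have ev : Even d.card := by rw [h2]; norm_num
    have fx : ∀ y, Fx (U y) d := fun y => by
      rw [Fx, smul_of_subset (U_fix y) hd, symmDiff_self]; exact empty_mem_codeSets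
    obtain ⟨w, hw, e⟩ := fx_cover m ev (fx 1)
    have h3 : w < 64 := by
      by_contra h3
      have := not_fx hw (by omega) (y := 2) (by norm_num) ((fx 2).congr (U 2).2 ((c_eq_iff m ev (even_e7 w)).1 e))
      omega
    exact ⟨w, by omega, by rw [T_low m h3, e, e7_eq h3 (y := 0) (by norm_num), mul_zero, zero_add]⟩
  have h1 : x ∈ NV m := hf.cent_duad (ofMask 5) (by decide +kernel) (mem_centralizer_singleton_iff.2
    (hx _ (sub _ (by decide +kernel) (by decide +kernel))).symm)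
  obtain ⟨b, hb, h, rfl⟩ := (m.mem_M _).1 h1
  obtain ⟨y, hy, rfl⟩ := exists_U (g := h) (fix_of_duads (by decide +kernel) fun d hd h2 =>
    (comm_c_iff m hb (by rw [h2]; norm_num) h).1 (hx _ (sub d hd h2)).symm)
  have κm : ∀ y < 16, m.κ (U y) ∈ A0 m := fun y hy =>
    ⟨64 * y + 0, by omega, by rw [T_eq m (by norm_num) hy, show e7 0 = ∅ from ofMask_zero, c_empty, one_mul]⟩
  have fx : ∀ y' < 16, Fx (U y') b := fun y' hy' => by
    have h2 := hx _ (κm y' hy')
    rw [← mul_assoc, mul_assoc (m.c b), (el_A0 m).comm (κm y hy) (κm y' hy'), ← mul_assoc, mul_left_inj] at h2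
    rw [← comm_c_iff m (a := ∅) (by simp) hb, c_empty, one_mul, h2]
  obtain ⟨w, hw, e⟩ := fx_cover m hb (fx 1 (by norm_num))
  have h3 : w < 64 := by
    by_contra h3
    have := not_fx hw (by omega) (y := 2) (by norm_num)
      ((fx 2 (by norm_num)).congr (U 2).2 ((c_eq_iff m hb (even_e7 w)).1 e))
    omega
  exact ⟨64 * y + w, by omega, by rw [T_eq m h3 hy, e]⟩

end

end CfsgLib.J4T.Ten
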